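import Mathlib

/-!
# Isomorphisms from parallel multiplication tables

Two groups with generators whose right Cayley graphs coincide (checked on packed matrices) are isomorphic.
-/

set_option autoImplicit false

namespace Cfsg.Agent.Lib.Chev.GI

/-- Entry `(i,j)` of a packed `d × d` matrix. -/
def ent (bits mask d m i j : ℕ) : ℕ :=
  Nat.land (Nat.shiftRight m (bits * (i * d + j))) mask

/-- Entry of a product, not normalized. -/
def dotF (add mul : ℕ → ℕ → ℕ) (bits mask d X Y i j : ℕ) : ℕ :=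
  (List.range d).foldr (fun k acc => add (mul (ent bits mask d X i k) (ent bits mask d Y k j)) acc) 0

/-- `Z = X * Y`. -/
def chkMul (add mul : ℕ → ℕ → ℕ) (norm : ℕ → ℕ) (bits mask d X Y Z : ℕ) : Bool :=
  (List.range d).all fun i => (List.range d).all fun j =>
    Nat.beq (ent bits mask d Z i j) (norm (dotF add mul bits mask d X Y i j))

/-- `X = 1`. -/
def chkId (bits mask d X : ℕ) : Bool :=
  (List.range d).all fun i => (List.range d).all fun j =>
    Nat.beq (ent bits mask d X i j) (if Nat.beq i j then 1 else 0)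

section semantics

variable {F : Type*} [Field F] (φ : ℕ → F)

/-- The matrix of a code. -/
def toM (bits mask d m : ℕ) : Matrix (Fin d) (Fin d) F :=
  Matrix.of fun i j => φ (ent bits mask d m i j)

variable {φ} {add mul : ℕ → ℕ → ℕ} {norm : ℕ → ℕ}

theorem foldr_hom' (hadd : ∀ a b, φ (add a b) = φ a + φ b) (h0 : φ 0 = 0) (g : ℕ → ℕ) (l : List ℕ) :
    φ (l.foldr (fun k acc => add (g k) acc) 0) = (l.map fun k => φ (g k)).sum := by
  induction l with
  | nil => simpa using h0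
  | cons a l ih => simp only [List.foldr_cons, hadd, ih, List.map_cons, List.sum_cons]

theorem sum_range_list' (f : ℕ → F) (d : ℕ) : ((List.range d).map f).sum = ∑ k : Fin d, f k := by
  rw [Fin.sum_univ_eq_sum_range]
  rfl

theorem chkMul_spec (hadd : ∀ a b, φ (add a b) = φ a + φ b) (hmul : ∀ a b, φ (mul a b) = φ a * φ b)
    (h0 : φ 0 = 0) (hnorm : ∀ a, φ (norm a) = φ a) {bits mask d X Y Z : ℕ}
    (h : chkMul add mul norm bits mask d X Y Z = true) :
    toM φ bits mask d Z = toM φ bits mask d X * toM φ bits mask d Y := by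
  ext i j
  rw [Matrix.mul_apply]
  simp only [toM, Matrix.of_apply]
  simp only [chkMul, List.all_eq_true, List.mem_range] at h
  have h1 := Nat.eq_of_beq_eq_true (h i i.2 j j.2)
  rw [h1, hnorm, dotF, foldr_hom' hadd h0, sum_range_list']
  simp only [hmul]

theorem chkId_spec (h0 : φ 0 = 0) (h1 : φ 1 = 1) {bits mask d X : ℕ}
    (h : chkId bits mask d X = true) : toM φ bits mask d X = 1 := by
  ext i j
  simp only [chkId, List.all_eq_true, List.mem_range] at h
  have h2 := Nat.eq_of_beq_eq_true (h i i.2 j j.2)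
  simp only [toM, Matrix.of_apply]
  rw [h2]
  by_cases hij : i = j
  · subst hij
    simp [Nat.beq_refl, h1]
  · have h3 : (i : ℕ) ≠ j := fun e => hij (Fin.ext e)
    have h4 : Nat.beq (i : ℕ) j = false := by
      cases e : Nat.beq (i : ℕ) j with
      | false => rfl
      | true => exact absurd (Nat.eq_of_beq_eq_true e) h3
    rw [h4, Matrix.one_apply_ne hij]
    simpa using h0

omit [Field F] in
/-- Codes are separated by the entries at the listed positions. -/
theorem toM_sig_inj {q bits mask d : ℕ} (hinj : ∀ x y, x < q → y < q → φ x = φ y → x = y)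
    (pos : List (ℕ × ℕ)) (hpos : ∀ p ∈ pos, p.1 < d ∧ p.2 < d) {X Y : ℕ}
    (hX : ∀ p ∈ pos, ent bits mask d X p.1 p.2 < q) (hY : ∀ p ∈ pos, ent bits mask d Y p.1 p.2 < q)
    (h : toM φ bits mask d X = toM φ bits mask d Y) :
    pos.map (fun p => ent bits mask d X p.1 p.2) = pos.map (fun p => ent bits mask d Y p.1 p.2) := by
  apply List.map_congr_left
  intro p hp
  have h2 := congrFun (congrFun h ⟨p.1, (hpos p hp).1⟩) ⟨p.2, (hpos p hp).2⟩
  simp only [toM, Matrix.of_apply] at h2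
  exact hinj _ _ (hX p hp) (hY p hp) h2

end semantics

section tables

variable {P Q X X' : Type*} [Group P] [Group Q] [Monoid X] [Monoid X']

/-- Parallel right Cayley tables for letters in two groups. -/
structure Tab (ι : P →* X) (ι' : Q →* X') (n k : ℕ) (γ : ℕ → P) (δ : ℕ → Q) (e : ℕ → X) (e' : ℕ → X')
    (T : ℕ → ℕ → ℕ) (par gn : ℕ → ℕ) : Prop where
  inj : Function.Injective ι
  inj' : Function.Injective ι'
  npos : 0 < n
  e0 : e 0 = 1
  e0' : e' 0 = 1
  hT : ∀ a < k, ∀ i < n, T a i < n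
  hM : ∀ a < k, ∀ i < n, e (T a i) = e i * ι (γ a)
  hM' : ∀ a < k, ∀ i < n, e' (T a i) = e' i * ι' (δ a)
  hp : ∀ i, 0 < i → i < n → par i < i ∧ gn i < k ∧ T (gn i) (par i) = i
  einj : ∀ i < n, ∀ j < n, e i = e j → i = j
  einj' : ∀ i < n, ∀ j < n, e' i = e' j → i = j

variable {ι : P →* X} {ι' : Q →* X'} {n k : ℕ} {γ : ℕ → P} {δ : ℕ → Q} {e : ℕ → X} {e' : ℕ → X'}
  {T : ℕ → ℕ → ℕ} {par gn : ℕ → ℕ}

/-- The letters of the product. -/
def gam (γ : ℕ → P) (δ : ℕ → Q) (a : ℕ) : P × Q := (γ a, δ a)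

/-- The graph subgroup. -/
def Gam (k : ℕ) (γ : ℕ → P) (δ : ℕ → Q) : Subgroup (P × Q) := Subgroup.closure (gam γ δ '' {a | a < k})

theorem Tab.stays [Finite P] [Finite Q] (t : Tab ι ι' n k γ δ e e' T par gn) {a : ℕ} (ha : a < k) (m : ℕ) :
    ∀ z : P × Q, (∃ i < n, ι z.1 = e i ∧ ι' z.2 = e' i) →
      ∃ i < n, ι (z * gam γ δ a ^ m).1 = e i ∧ ι' (z * gam γ δ a ^ m).2 = e' i := by
  induction m with
  | zero =>
    intro z hz
    simpa using hz
  | succ m ih =>
    intro z hz
    obtain ⟨i, hi, h1, h2⟩ := ih z hz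
    refine ⟨T a i, t.hT a ha i hi, ?_, ?_⟩
    · rw [pow_succ, ← mul_assoc, Prod.fst_mul, map_mul, h1, t.hM a ha i hi]
      rfl
    · rw [pow_succ, ← mul_assoc, Prod.snd_mul, map_mul, h2, t.hM' a ha i hi]
      rfl

theorem Tab.c1 [Finite P] [Finite Q] (t : Tab ι ι' n k γ δ e e' T par gn) {z : P × Q} (hz : z ∈ Gam k γ δ) :
    ∃ i < n, ι z.1 = e i ∧ ι' z.2 = e' i := by
  induction hz using Subgroup.closure_induction_right with
  | one =>
    refine ⟨0, t.npos, ?_, ?_⟩
    · simp [t.e0]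
    · simp [t.e0']
  | mul_right x _ y hy ih =>
    obtain ⟨a, ha, rfl⟩ := hy
    have := t.stays ha 1 x ih
    simpa using this
  | mul_inv_cancel x _ y hy ih =>
    obtain ⟨a, ha, rfl⟩ := hy
    have h0 : 0 < orderOf (gam γ δ a) := orderOf_pos _
    have h1 : (gam γ δ a)⁻¹ = gam γ δ a ^ (orderOf (gam γ δ a) - 1) := by
      apply inv_eq_of_mul_eq_one_right
      rw [← pow_succ', Nat.sub_add_cancel h0, pow_orderOf_eq_one]
    rw [h1]
    exact t.stays ha _ x ih

theorem Tab.c2 (t : Tab ι ι' n k γ δ e e' T par gn) : ∀ i, i < n →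
    ∃ z ∈ Gam k γ δ, ι z.1 = e i ∧ ι' z.2 = e' i := by
  intro i
  induction i using Nat.strong_induction_on with
  | _ i ih =>
    intro hi
    rcases Nat.eq_zero_or_pos i with rfl | hpos
    · exact ⟨1, one_mem _, by simp [t.e0], by simp [t.e0']⟩
    · obtain ⟨h1, h2, h3⟩ := t.hp i hpos hi
      obtain ⟨z, hz, h4, h5⟩ := ih (par i) h1 (by omega)
      refine ⟨z * gam γ δ (gn i), mul_mem hz (Subgroup.subset_closure ⟨gn i, h2, rfl⟩), ?_, ?_⟩
      · have := t.hM (gn i) h2 (par i) (by omega)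
        rw [h3] at this
        rw [this, Prod.fst_mul, map_mul, h4]
        rfl
      · have := t.hM' (gn i) h2 (par i) (by omega)
        rw [h3] at this
        rw [this, Prod.snd_mul, map_mul, h5]
        rfl

/-- The conclusion of a parallel table: a subgroup of `P` isomorphic to `Q`. -/
theorem Tab.main [Finite P] [Finite Q] (t : Tab ι ι' n k γ δ e e' T par gn) (hQ : Nat.card Q = n) :
    ∃ N : Subgroup P, N = Subgroup.closure (γ '' {a | a < k}) ∧ Nat.card N = n ∧
      (∀ x, x ∈ N ↔ ∃ i < n, ι x = e i) ∧ Nonempty (N ≃* Q) := by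
  classical
  set Γ := Gam k γ δ with hΓ
  let p₁ : Γ →* P := (MonoidHom.fst P Q).comp Γ.subtype
  let p₂ : Γ →* Q := (MonoidHom.snd P Q).comp Γ.subtype
  have hp₁ : Function.Injective p₁ := by
    rintro ⟨z, hz⟩ ⟨w, hw⟩ h
    have h' : z.1 = w.1 := h
    obtain ⟨i, hi, h1, h2⟩ := t.c1 hz
    obtain ⟨j, hj, h3, h4⟩ := t.c1 hw
    have hij : i = j := t.einj i hi j hj (by rw [← h1, ← h3, h'])
    subst hij
    exact Subtype.ext (Prod.ext h' (t.inj' (h2.trans h4.symm)))
  have hp₂ : Function.Injective p₂ := by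
    rintro ⟨z, hz⟩ ⟨w, hw⟩ h
    have h' : z.2 = w.2 := h
    obtain ⟨i, hi, h1, h2⟩ := t.c1 hz
    obtain ⟨j, hj, h3, h4⟩ := t.c1 hw
    have hij : i = j := t.einj' i hi j hj (by rw [← h2, ← h4, h'])
    subst hij
    exact Subtype.ext (Prod.ext (t.inj (h1.trans h3.symm)) h')
  have hcard : Nat.card Γ = n := by
    choose! f hf using t.c2
    let f' : Fin n → Γ := fun i => ⟨f i, (hf i i.2).1⟩
    have hb : Function.Bijective f' := by
      constructor
      · intro i j h
        have h1 : f i = f j := congrArg Subtype.val h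
        have h2 := (hf i i.2).2.1
        have h3 := (hf j j.2).2.1
        rw [h1, h3] at h2
        exact Fin.ext (t.einj _ j.2 _ i.2 h2).symm
      · rintro ⟨z, hz⟩
        obtain ⟨i, hi, h1, h2⟩ := t.c1 hz
        refine ⟨⟨i, hi⟩, ?_⟩
        apply Subtype.ext
        have h3 := hf i hi
        exact Prod.ext (t.inj (h3.2.1.trans h1.symm)) (t.inj' (h3.2.2.trans h2.symm))
    rw [← Nat.card_eq_of_bijective f' hb, Nat.card_fin]
  refine ⟨p₁.range, ?_, ?_, ?_, ?_⟩
  · have h1 : p₁.range = Γ.map (MonoidHom.fst P Q) := by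
      rw [MonoidHom.range_comp, Subgroup.range_subtype]
    rw [h1, hΓ, Gam, MonoidHom.map_closure, Set.image_image]
    rfl
  · rw [← hcard]
    exact Nat.card_congr (MonoidHom.ofInjective hp₁).toEquiv.symm
  · intro x
    constructor
    · rintro ⟨⟨z, hz⟩, rfl⟩
      obtain ⟨i, hi, h1, _⟩ := t.c1 hz
      exact ⟨i, hi, h1⟩
    · rintro ⟨i, hi, h1⟩
      obtain ⟨z, hz, h2, _⟩ := t.c2 i hi
      exact ⟨⟨z, hz⟩, t.inj (h2.trans h1.symm)⟩
  · have hb : Function.Bijective p₂ := hp₂.bijective_of_nat_card_le (by rw [hQ, hcard])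
    exact ⟨(MonoidHom.ofInjective hp₁).symm.trans (MulEquiv.ofBijective p₂ hb)⟩

end tables

section comm

variable {𝔾 : Type*} [Group 𝔾]

theorem conj_pow_mem {N : Subgroup 𝔾} {t : 𝔾} (hnorm : ∀ x ∈ N, t * x * t⁻¹ ∈ N) (m : ℕ) :
    ∀ x ∈ N, t ^ m * x * (t ^ m)⁻¹ ∈ N := by
  induction m with
  | zero => intro x hx; simp [hx]
  | succ m ih =>
    intro x hx
    have h := ih _ (hnorm x hx)
    have h2 : t ^ (m + 1) * x * (t ^ (m + 1))⁻¹ = t ^ m * (t * x * t⁻¹) * (t ^ m)⁻¹ := by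
      rw [pow_succ]
      group
    rw [h2]
    exact h

/-- A subgroup of prime index, normalized by an outside element, containing (the image of) the derived subgroup,
is the derived subgroup. -/
theorem commutator_eq (G N : Subgroup 𝔾) [Finite G] {c : ℕ} (hc : c.Prime) (hN : N ≤ G)
    (hG : Nat.card G = c * Nat.card N) (t : 𝔾) (ht : t ∈ G) (htN : t ∉ N)
    (hnorm : ∀ x ∈ N, t * x * t⁻¹ ∈ N) (hcomm : N ≤ (commutator G).map G.subtype) :
    (commutator G).map G.subtype = N := by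
  classical
  refine le_antisymm ?_ hcomm
  set N₀ : Subgroup G := N.subgroupOf G with hN₀
  have hc₀ : Nat.card N₀ = Nat.card N := Nat.card_congr (Subgroup.subgroupOfEquivOfLe hN).toEquiv
  let t₀ : G := ⟨t, ht⟩
  have hord : 0 < orderOf t₀ := orderOf_pos _
  have hinv : ∀ x ∈ N, t⁻¹ * x * t ∈ N := by
    intro x hx
    have h1 := conj_pow_mem hnorm (orderOf t₀ - 1) x hx
    have h2 : t⁻¹ = t ^ (orderOf t₀ - 1) := by
      have h3 : t ^ orderOf t₀ = 1 := by
        have := congrArg Subtype.val (pow_orderOf_eq_one t₀)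
        simpa [t₀] using this
      apply inv_eq_of_mul_eq_one_right
      rw [← pow_succ', Nat.sub_add_cancel hord, h3]
    rw [← h2] at h1
    simpa using h1
  set Nz : Subgroup G := Subgroup.normalizer (N₀ : Set G) with hNz
  have hmem : t₀ ∈ Nz := by
    rw [Subgroup.mem_normalizer_iff]
    intro h
    constructor
    · intro hh
      have h1 : (h : 𝔾) ∈ N := hh
      show ((t₀ * h * t₀⁻¹ : G) : 𝔾) ∈ N
      simpa [t₀] using hnorm _ h1
    · intro hh
      have h1 : ((t₀ * h * t₀⁻¹ : G) : 𝔾) ∈ N := hh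
      have h2 : t * (h : 𝔾) * t⁻¹ ∈ N := by simpa [t₀] using h1
      have h3 := hinv _ h2
      show (h : 𝔾) ∈ N
      have h4 : t⁻¹ * (t * (h : 𝔾) * t⁻¹) * t = h := by group
      rwa [h4] at h3
  have hle : N₀ ≤ Nz := Subgroup.le_normalizer
  have hdvd1 : Nat.card N₀ ∣ Nat.card Nz := Subgroup.card_dvd_of_le hle
  have hdvd2 : Nat.card Nz ∣ Nat.card G := Subgroup.card_subgroup_dvd_card _
  have hpos : 0 < Nat.card N₀ := Nat.card_pos
  obtain ⟨m, hm⟩ := hdvd1
  have hmc : m ∣ c := by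
    rw [hG, ← hc₀, hm, mul_comm c] at hdvd2
    exact Nat.dvd_of_mul_dvd_mul_left hpos hdvd2
  have hnor : Nz = ⊤ := by
    rcases (Nat.dvd_prime hc).mp hmc with rfl | rfl
    · exfalso
      have h1 : N₀ = Nz :=
        Subgroup.eq_of_le_of_card_ge hle (by rw [hm, mul_one])
      rw [← h1] at hmem
      exact htN hmem
    · apply Subgroup.eq_top_of_card_eq
      rw [hm, hG, hc₀, mul_comm]
  have hnormal : N₀.Normal := Subgroup.normalizer_eq_top_iff.mp hnor
  have hq : Nat.card (G ⧸ N₀) = c := by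
    have h1 := Subgroup.card_eq_card_quotient_mul_card_subgroup N₀
    rw [hG, hc₀] at h1
    have h2 : 0 < Nat.card N := hc₀ ▸ hpos
    exact (Nat.eq_of_mul_eq_mul_right h2 h1).symm
  have : Fact c.Prime := ⟨hc⟩
  have hcyc : IsCyclic (G ⧸ N₀) := isCyclic_of_prime_card hq
  have hcomm' : commutator G ≤ N₀ := by
    rw [commutator_def, Subgroup.commutator_le]
    intro g₁ _ g₂ _
    rw [← QuotientGroup.eq_one_iff, commutatorElement_def]
    have h3 : (g₁ : G ⧸ N₀) * g₂ = g₂ * g₁ := by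
      obtain ⟨x, hx⟩ := IsCyclic.exists_generator (α := G ⧸ N₀)
      obtain ⟨a, ha⟩ := Subgroup.mem_zpowers_iff.mp (hx (g₁ : G ⧸ N₀))
      obtain ⟨b, hb⟩ := Subgroup.mem_zpowers_iff.mp (hx (g₂ : G ⧸ N₀))
      rw [← ha, ← hb, ← zpow_add, ← zpow_add, add_comm]
    simp only [QuotientGroup.mk_mul, QuotientGroup.mk_inv]
    rw [h3]
    group
  rintro _ ⟨x, hx, rfl⟩
  exact hcomm' hx

end comm

end Cfsg.Agent.Lib.Chev.GI
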