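import Cfsg.Agent.Lib.Chev.GI.Core

/-!
# Left Cayley tables and bit matrices
-/

set_option autoImplicit false

namespace Cfsg.Agent.Lib.Chev.GI

section tables

variable {P Q X X' : Type*} [Group P] [Group Q] [Monoid X] [Monoid X']

/-- Parallel left Cayley tables for letters in two groups. -/
structure TabL (ι : P →* X) (ι' : Q →* X') (n k : ℕ) (γ : ℕ → P) (δ : ℕ → Q) (e : ℕ → X) (e' : ℕ → X')
    (T : ℕ → ℕ → ℕ) (i₀ : ℕ) : Prop where
  inj : Function.Injective ι
  inj' : Function.Injective ι'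
  i0lt : i₀ < n
  e0 : e i₀ = 1
  e0' : e' i₀ = 1
  hT : ∀ a < k, ∀ i < n, T a i < n
  hM : ∀ a < k, ∀ i < n, e (T a i) = ι (γ a) * e i
  hM' : ∀ a < k, ∀ i < n, e' (T a i) = ι' (δ a) * e' i
  tree : ∀ R : ℕ → Prop, R i₀ → (∀ j < n, ∀ a < k, R j → R (T a j)) → ∀ i < n, R i
  einj : ∀ i < n, ∀ j < n, e i = e j → i = j
  einj' : ∀ i < n, ∀ j < n, e' i = e' j → i = j

variable {ι : P →* X} {ι' : Q →* X'} {n k : ℕ} {γ : ℕ → P} {δ : ℕ → Q} {e : ℕ → X} {e' : ℕ → X'}
  {T : ℕ → ℕ → ℕ} {i₀ : ℕ}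

theorem TabL.stays [Finite P] [Finite Q] (t : TabL ι ι' n k γ δ e e' T i₀) {a : ℕ} (ha : a < k) (m : ℕ) :
    ∀ z : P × Q, (∃ i < n, ι z.1 = e i ∧ ι' z.2 = e' i) →
      ∃ i < n, ι (gam γ δ a ^ m * z).1 = e i ∧ ι' (gam γ δ a ^ m * z).2 = e' i := by
  induction m with
  | zero =>
    intro z hz
    simpa using hz
  | succ m ih =>
    intro z hz
    obtain ⟨i, hi, h1, h2⟩ := ih z hz
    refine ⟨T a i, t.hT a ha i hi, ?_, ?_⟩
    · rw [pow_succ', mul_assoc, Prod.fst_mul, map_mul, h1, t.hM a ha i hi]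
      rfl
    · rw [pow_succ', mul_assoc, Prod.snd_mul, map_mul, h2, t.hM' a ha i hi]
      rfl

theorem TabL.c1 [Finite P] [Finite Q] (t : TabL ι ι' n k γ δ e e' T i₀) {z : P × Q} (hz : z ∈ Gam k γ δ) :
    ∃ i < n, ι z.1 = e i ∧ ι' z.2 = e' i := by
  induction hz using Subgroup.closure_induction_left with
  | one =>
    refine ⟨i₀, t.i0lt, ?_, ?_⟩
    · simp [t.e0]
    · simp [t.e0']
  | mul_left y hy x _ ih =>
    obtain ⟨a, ha, rfl⟩ := hy
    have := t.stays ha 1 x ih
    simpa using this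
  | inv_mul_cancel y hy x _ ih =>
    obtain ⟨a, ha, rfl⟩ := hy
    have h0 : 0 < orderOf (gam γ δ a) := orderOf_pos _
    have h1 : (gam γ δ a)⁻¹ = gam γ δ a ^ (orderOf (gam γ δ a) - 1) := by
      apply inv_eq_of_mul_eq_one_right
      rw [← pow_succ', Nat.sub_add_cancel h0, pow_orderOf_eq_one]
    rw [h1]
    exact t.stays ha _ x ih

theorem TabL.c2 (t : TabL ι ι' n k γ δ e e' T i₀) : ∀ i, i < n →
    ∃ z ∈ Gam k γ δ, ι z.1 = e i ∧ ι' z.2 = e' i := by
  apply t.tree
  · exact ⟨1, one_mem _, by simp [t.e0], by simp [t.e0']⟩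
  · rintro j hj a ha ⟨z, hz, h4, h5⟩
    refine ⟨gam γ δ a * z, mul_mem (Subgroup.subset_closure ⟨a, ha, rfl⟩) hz, ?_, ?_⟩
    · rw [t.hM a ha j hj, Prod.fst_mul, map_mul, h4]
      rfl
    · rw [t.hM' a ha j hj, Prod.snd_mul, map_mul, h5]
      rfl

/-- The conclusion of a parallel table: a subgroup of `P` isomorphic to `Q`. -/
theorem TabL.main [Finite P] [Finite Q] (t : TabL ι ι' n k γ δ e e' T i₀) (hQ : Nat.card Q = n) :
    ∃ N : Subgroup P, N = Subgroup.closure (γ '' {a | a < k}) ∧ Nat.card N = n ∧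
      (∀ x, x ∈ N ↔ ∃ i < n, ι x = e i) ∧ Nonempty (N ≃* Q) := by
  classical
  set Γ := Gam k γ δ with hΓ
  let p₁ : Γ →* P := (MonoidHom.fst P Q).comp Γ.subtype
  let p₂ : Γ →* Q := (MonoidHom.snd P Q).comp Γ.subtype
  have hp₁ : Function.Injective p₁ := by
    rintro ⟨z, hz⟩ ⟨w, hw⟩ h
    have h' : z.1 = w.1 := h
    obtain ⟨i, hi, h1, h2⟩ := t.c1 hz
    obtain ⟨j, hj, h3, h4⟩ := t.c1 hw
    have hij : i = j := t.einj i hi j hj (by rw [← h1, ← h3, h'])
    subst hij
    exact Subtype.ext (Prod.ext h' (t.inj' (h2.trans h4.symm)))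
  have hp₂ : Function.Injective p₂ := by
    rintro ⟨z, hz⟩ ⟨w, hw⟩ h
    have h' : z.2 = w.2 := h
    obtain ⟨i, hi, h1, h2⟩ := t.c1 hz
    obtain ⟨j, hj, h3, h4⟩ := t.c1 hw
    have hij : i = j := t.einj' i hi j hj (by rw [← h2, ← h4, h'])
    subst hij
    exact Subtype.ext (Prod.ext (t.inj (h1.trans h3.symm)) h')
  have hcard : Nat.card Γ = n := by
    choose! f hf using t.c2
    let f' : Fin n → Γ := fun i => ⟨f i, (hf i i.2).1⟩
    have hb : Function.Bijective f' := by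
      constructor
      · intro i j h
        have h1 : f i = f j := congrArg Subtype.val h
        have h2 := (hf i i.2).2.1
        have h3 := (hf j j.2).2.1
        rw [h1, h3] at h2
        exact Fin.ext (t.einj _ j.2 _ i.2 h2).symm
      · rintro ⟨z, hz⟩
        obtain ⟨i, hi, h1, h2⟩ := t.c1 hz
        refine ⟨⟨i, hi⟩, ?_⟩
        apply Subtype.ext
        have h3 := hf i hi
        exact Prod.ext (t.inj (h3.2.1.trans h1.symm)) (t.inj' (h3.2.2.trans h2.symm))
    rw [← Nat.card_eq_of_bijective f' hb, Nat.card_fin]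
  refine ⟨p₁.range, ?_, ?_, ?_, ?_⟩
  · have h1 : p₁.range = Γ.map (MonoidHom.fst P Q) := by
      rw [MonoidHom.range_comp, Subgroup.range_subtype]
    rw [h1, hΓ, Gam, MonoidHom.map_closure, Set.image_image]
    rfl
  · rw [← hcard]
    exact Nat.card_congr (MonoidHom.ofInjective hp₁).toEquiv.symm
  · intro x
    constructor
    · rintro ⟨⟨z, hz⟩, rfl⟩
      obtain ⟨i, hi, h1, _⟩ := t.c1 hz
      exact ⟨i, hi, h1⟩
    · rintro ⟨i, hi, h1⟩
      obtain ⟨z, hz, h2, _⟩ := t.c2 i hi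
      exact ⟨⟨z, hz⟩, t.inj (h2.trans h1.symm)⟩
  · have hb : Function.Bijective p₂ := hp₂.bijective_of_nat_card_le (by rw [hQ, hcard])
    exact ⟨(MonoidHom.ofInjective hp₁).symm.trans (MulEquiv.ofBijective p₂ hb)⟩

end tables

section bits

/-- A row of a packed bit matrix. -/
def rowB (d mask X r : ℕ) : ℕ := Nat.land (Nat.shiftRight X (d * r)) mask

/-- A row times a matrix. -/
def rowMul (d mask Lr X : ℕ) : ℕ :=
  (List.range d).foldr (fun s acc => bif Nat.testBit Lr s then Nat.xor (rowB d mask X s) acc else acc) 0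

/-- `Z = L * X`. -/
def chkB (d mask L X Z : ℕ) : Bool :=
  (List.range d).all fun r => Nat.beq (rowB d mask Z r) (rowMul d mask (rowB d mask L r) X)

/-- `X = 1`. -/
def chkIdB (d mask X : ℕ) : Bool :=
  (List.range d).all fun r => Nat.beq (rowB d mask X r) (Nat.shiftLeft 1 r)

variable {F : Type*} [Field F]

/-- A bit in a field. -/
def bφ (b : Bool) : F := if b then 1 else 0

theorem bφ_xor (h2 : (2 : F) = 0) (a b : Bool) : (bφ (xor a b) : F) = bφ a + bφ b := by
  cases a <;> cases b <;> simp [bφ]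
  linear_combination -h2

theorem bφ_inj {a b : Bool} (h : (bφ a : F) = bφ b) : a = b := by
  cases a <;> cases b <;> simp_all [bφ]

/-- The matrix of a bit code. -/
def toB (F : Type*) [Field F] (d X : ℕ) : Matrix (Fin d) (Fin d) F :=
  Matrix.of fun i j => bφ (X.testBit (d * i + j))

theorem rowB_testBit {d X r j : ℕ} (hj : j < d) : (rowB d (2 ^ d - 1) X r).testBit j = X.testBit (d * r + j) := by
  have h1 : rowB d (2 ^ d - 1) X r = (X >>> (d * r)) &&& (2 ^ d - 1) := rfl
  rw [h1, Nat.testBit_and, Nat.testBit_shiftRight, Nat.testBit_two_pow_sub_one]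
  simp [hj]

theorem rowMul_foldr (h2 : (2 : F) = 0) {d Lr X j : ℕ} (hj : j < d) (l : List ℕ) :
    (bφ ((l.foldr (fun s acc => bif Nat.testBit Lr s then Nat.xor (rowB d (2 ^ d - 1) X s) acc else acc) 0).testBit j) : F)
      = (l.map fun s => (bφ (Lr.testBit s) : F) * bφ (X.testBit (d * s + j))).sum := by
  induction l with
  | nil => simp [bφ]
  | cons s l ih =>
    simp only [List.foldr_cons, List.map_cons, List.sum_cons]
    rw [← ih]
    cases hb : Nat.testBit Lr s with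
    | true =>
      have h3 : ∀ a b : ℕ, (Nat.xor a b).testBit j = xor (a.testBit j) (b.testBit j) :=
        fun a b => Nat.testBit_xor a b j
      simp only [cond_true]
      rw [h3, bφ_xor h2, rowB_testBit hj]
      simp [bφ]
    | false =>
      simp [bφ]

theorem chkB_spec (h2 : (2 : F) = 0) {d L X Z : ℕ} (h : chkB d (2 ^ d - 1) L X Z = true) :
    toB F d Z = toB F d L * toB F d X := by
  ext r j
  rw [Matrix.mul_apply]
  simp only [chkB, List.all_eq_true, List.mem_range] at h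
  have h1 := Nat.eq_of_beq_eq_true (h r r.2)
  have h3 : X.testBit 0 = X.testBit 0 := rfl
  simp only [toB, Matrix.of_apply]
  rw [← rowB_testBit j.2, h1, rowMul, rowMul_foldr h2 j.2, sum_range_list']
  apply Finset.sum_congr rfl
  intro s _
  rw [rowB_testBit s.2]

theorem chkIdB_spec {d X : ℕ} (h : chkIdB d (2 ^ d - 1) X = true) : toB F d X = 1 := by
  ext r j
  simp only [chkIdB, List.all_eq_true, List.mem_range] at h
  have h1 := Nat.eq_of_beq_eq_true (h r r.2)
  simp only [toB, Matrix.of_apply]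
  rw [← rowB_testBit j.2, h1]
  have h3 : Nat.shiftLeft 1 (r : ℕ) = 2 ^ (r : ℕ) := by
    show 1 <<< (r : ℕ) = _
    rw [Nat.one_shiftLeft]
  rw [h3, Nat.testBit_two_pow]
  by_cases hij : r = j
  · subst hij
    simp [bφ]
  · have h4 : (r : ℕ) ≠ j := fun e => hij (Fin.ext e)
    simp [bφ, h4, Matrix.one_apply_ne hij]

theorem toB_inj {d X Y : ℕ} (hX : X < 2 ^ (d * d)) (hY : Y < 2 ^ (d * d)) (h : toB F d X = toB F d Y) : X = Y := by
  apply Nat.eq_of_testBit_eq
  intro b
  by_cases hb : b < d * d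
  · have hd : 0 < d := by
      rcases Nat.eq_zero_or_pos d with rfl | h0
      · simp at hb
      · exact h0
    have h1 : b / d < d := Nat.div_lt_of_lt_mul hb
    have h3 : b % d < d := Nat.mod_lt _ hd
    have h4 := congrFun (congrFun h ⟨b / d, h1⟩) ⟨b % d, h3⟩
    simp only [toB, Matrix.of_apply, Nat.div_add_mod] at h4
    exact bφ_inj h4
  · have h1 : d * d ≤ b := by omega
    have h3 : ∀ Z, Z < 2 ^ (d * d) → Z.testBit b = false := fun Z hZ =>
      Nat.testBit_lt_two_pow (lt_of_lt_of_le hZ (Nat.pow_le_pow_right (by norm_num) h1))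
    rw [h3 X hX, h3 Y hY]

end bits

theorem strict_of_succ {f : ℕ → ℕ} {n : ℕ} (h : ∀ k, k + 1 < n → f k < f (k + 1)) :
    ∀ l, l < n → ∀ k, k < l → f k < f l := by
  intro l
  induction l with
  | zero => intro _ k hk; omega
  | succ l ih =>
    intro hl k hk
    have h1 := h l hl
    rcases Nat.lt_or_ge k l with h2 | h2
    · exact (ih (by omega) k h2).trans h1
    · have : k = l := by omega
      subst this
      exact h1

end Cfsg.Agent.Lib.Chev.GI
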