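import Cfsg.Agent.Lib.Chev.GI.R3Tab
import Cfsg.Agent.Lib.KnownSimple.LabField
import Cfsg.Agent.Lib.Classical.SL2Local
import Cfsg.Agent.S1069

/-! `²G₂(3)′ ≅ PSL₂(8)`: the checks and the assembly. -/

set_option autoImplicit false

namespace Cfsg.Agent.Lib.Chev.GI.R3

open Cfsg Cfsg.Lie
open Cfsg.Agent.Lib.KnownSimple.LabField

/-- Coordinates. -/
def EE : chevG2.Idx ≃ Fin 14 := (finSumFinEquiv : Fin 2 ⊕ Fin 12 ≃ Fin (2 + 12))

/-- Reindexing. -/
def RI : Matrix chevG2.Idx chevG2.Idx (ZMod 3) ≃ₐ[ZMod 3] Matrix (Fin 14) (Fin 14) (ZMod 3) :=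
  Matrix.reindexAlgEquiv (ZMod 3) (ZMod 3) EE

/-- The embedding of `GL`. -/
def ιP : Matrix.GeneralLinearGroup chevG2.Idx (ZMod 3) →* Matrix (Fin 14) (Fin 14) (ZMod 3) :=
  (RI.toRingEquiv.toMonoidHom).comp (Units.coeHom _)

theorem ιP_apply (g : Matrix.GeneralLinearGroup chevG2.Idx (ZMod 3)) : ιP g = RI (g : Matrix _ _ _) := rfl

theorem ιP_inj : Function.Injective ιP := by
  intro g h e
  exact Units.ext (RI.injective e)

/-- Codes over `ZMod 3`. -/
def φP (n : ℕ) : ZMod 3 := (n : ZMod 3)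

/-- The matrix of a code. -/
def MP (m : ℕ) : Matrix (Fin 14) (Fin 14) (ZMod 3) := toM φP 2 3 14 m

theorem chkP_spec {X Y Z : ℕ} (h : chkP X Y Z = true) : MP Z = MP X * MP Y :=
  chkMul_spec (φ := φP) (fun a b => Nat.cast_add a b) (fun a b => Nat.cast_mul a b) Nat.cast_zero
    (fun a => ZMod.natCast_mod a 3) h

theorem φP_inj : ∀ x y, x < 3 → y < 3 → φP x = φP y → x = y := by
  intro x y hx hy h
  have h1 : x % 3 = y % 3 := (ZMod.natCast_eq_natCast_iff' x y 3).mp h
  rwa [Nat.mod_eq_of_lt hx, Nat.mod_eq_of_lt hy] at h1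

/-- The codes of the root elements. -/
def XC (r c : ℕ) : ℕ := XCs.getD (r * 3 + c) 0

set_option maxRecDepth 100000 in
theorem hx_dec : ∀ r : Fin 12, ∀ c : ZMod 3, ∀ i j : Fin 14,
    chevG2.x (ZMod 3) r c (EE.symm i) (EE.symm j) = ((ent 2 3 14 (XC r c.val) i j : ℕ) : ZMod 3) := by
  decide +kernel

theorem hx {r : ℕ} (hr : r < 12) (c : ZMod 3) : RI (chevG2.x (ZMod 3) r c) = MP (XC r c.val) := by
  ext i j
  exact hx_dec ⟨r, hr⟩ c i j

/-- A word and its partial products. -/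
def wordChk : List (ℕ × ZMod 3) → List ℕ → ℕ → Bool
  | [], [], C => chkId 2 3 14 C
  | p :: w, C' :: Cs, C => chkP (XC p.1 p.2.val) C' C && Nat.blt p.1 12 && wordChk w Cs C'
  | _, _, _ => false

theorem wordChk_spec : ∀ (w : List (ℕ × ZMod 3)) (Cs : List ℕ) (C : ℕ), wordChk w Cs C = true →
    MP C = RI (chevG2.wordMat (ZMod 3) w) := by
  intro w
  induction w with
  | nil =>
    intro Cs C h
    cases Cs with
    | nil =>
      have h1 : toM φP 2 3 14 C = 1 :=
        chkId_spec (φ := φP) Nat.cast_zero Nat.cast_one (by simpa [wordChk] using h)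
      show toM φP 2 3 14 C = _
      rw [h1]
      simp [ChevalleyDatum.wordMat]
    | cons _ _ => simp [wordChk] at h
  | cons p w ih =>
    intro Cs C h
    cases Cs with
    | nil => simp [wordChk] at h
    | cons C' Cs =>
      simp only [wordChk, Bool.and_eq_true] at h
      obtain ⟨⟨h1, h2⟩, h3⟩ := h
      have h4 : ChevalleyDatum.wordMat chevG2 (ZMod 3) (p :: w) =
          chevG2.x (ZMod 3) p.1 p.2 * chevG2.wordMat (ZMod 3) w := by
        simp [ChevalleyDatum.wordMat]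
      rw [h4, map_mul, ← ih Cs C' h3, hx (Nat.le_of_ble_eq_true h2) p.2]
      exact chkP_spec h1

theorem idP : chkId 2 3 14 cI = true := by decide +kernel

theorem MP_cI : MP cI = 1 := chkId_spec (φ := φP) Nat.cast_zero Nat.cast_one idP

theorem exists_mem {w : List (ℕ × ZMod 3)} (hw : w ∈ g2Words (ZMod 3) 1) {Cs : List ℕ} {C Ci : ℕ}
    (h1 : wordChk w Cs C = true) (h2 : chkP C Ci cI = true) :
    ∃ g ∈ twistedG2 (ZMod 3) 1, ιP g = MP C := by
  have h3 := wordChk_spec w Cs C h1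
  have h4 : chevG2.wordMat (ZMod 3) w * RI.symm (MP Ci) = 1 := by
    apply RI.injective
    rw [map_mul, ← h3, RI.apply_symm_apply, ← chkP_spec h2, MP_cI, map_one]
  let g : Matrix.GeneralLinearGroup chevG2.Idx (ZMod 3) :=
    ⟨chevG2.wordMat (ZMod 3) w, RI.symm (MP Ci), h4, mul_eq_one_comm.mp h4⟩
  exact ⟨g, Subgroup.subset_closure ⟨w, hw, rfl⟩, h3.symm⟩

/-! ### The tables -/

set_option maxRecDepth 100000 in
theorem tabR : (List.range 504).all (fun i => Nat.blt (Tget 0 i) 504 && Nat.blt (Tget 1 i) 504) = true := by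
  decide +kernel

set_option maxRecDepth 100000 in
theorem tabTree : (List.range 504).all (fun i => Nat.beq i 0 || (Nat.blt (parL.getD i 0) i &&
    Nat.blt (gnL.getD i 0) 2 && Nat.beq (Tget (gnL.getD i 0) (parL.getD i 0)) i)) = true := by
  decide +kernel

/-- A number recording the entries at some positions. -/
def sigN (bits mask d b : ℕ) (pos : List (ℕ × ℕ)) (X : ℕ) : ℕ :=
  (pos.map fun p => ent bits mask d X p.1 p.2).foldl (fun acc x => acc * b + x) 0

set_option maxRecDepth 100000 in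
theorem nodupP : sigP.Nodup := by decide +kernel
set_option maxRecDepth 100000 in
theorem nodupQ : sigQ.Nodup := by decide +kernel
theorem lenP : sigP.length = 504 := by decide +kernel
theorem lenQ : sigQ.length = 504 := by decide +kernel

set_option maxRecDepth 100000 in
theorem sigPc : (List.range 504).all (fun i => Nat.beq (sigN 2 3 14 4 posP (mP.getD i 0)) (sigP.getD i 0)) = true := by
  decide +kernel
set_option maxRecDepth 100000 in
theorem sigQc : (List.range 504).all (fun i => Nat.beq (sigN 3 7 2 8 posQ (mQ.getD i 0)) (sigQ.getD i 0)) = true := by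
  decide +kernel

set_option maxRecDepth 100000 in
theorem redP : (List.range 504).all (fun i => posP.all fun p => Nat.blt (ent 2 3 14 (mP.getD i 0) p.1 p.2) 3) = true := by
  decide +kernel

set_option maxRecDepth 100000 in
theorem redQ : (List.range 504).all (fun i => posQ.all fun p => Nat.blt (ent 3 7 2 (mQ.getD i 0) p.1 p.2) 8) = true := by
  decide +kernel

theorem posP_ok : ∀ p ∈ posP, p.1 < 14 ∧ p.2 < 14 := by decide +kernel
theorem posQ_ok : ∀ p ∈ posQ, p.1 < 2 ∧ p.2 < 2 := by decide +kernel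

theorem e0P : chkId 2 3 14 (mP.getD 0 0) = true := by decide +kernel
theorem e0Q : chkId 3 7 2 (mQ.getD 0 0) = true := by decide +kernel

/-- The outside element is not in the list. -/
theorem tOut : sigP.all (fun s => !(Nat.beq (sigN 2 3 14 4 posP cc) s)) = true := by
  decide +kernel

theorem redT : posP.all (fun p => Nat.blt (ent 2 3 14 cc p.1 p.2) 3) = true := by decide +kernel

theorem hg1 : ∃ g ∈ twistedG2 (ZMod 3) 1, ιP g = MP cg1 :=
  exists_mem (w := reeWordU 1 0 1 0) ⟨0, 1, 0, Or.inl rfl⟩ (Cs := pg1) (Ci := ig1) (by decide +kernel) (by decide +kernel)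
theorem hg2 : ∃ g ∈ twistedG2 (ZMod 3) 1, ιP g = MP cg2 :=
  exists_mem (w := reeWordV 1 0 1 0) ⟨0, 1, 0, Or.inr rfl⟩ (Cs := pg2) (Ci := ig2) (by decide +kernel) (by decide +kernel)
theorem hg3 : ∃ g ∈ twistedG2 (ZMod 3) 1, ιP g = MP cg3 :=
  exists_mem (w := reeWordU 1 0 0 1) ⟨0, 0, 1, Or.inl rfl⟩ (Cs := pg3) (Ci := ig3) (by decide +kernel) (by decide +kernel)
theorem hg4 : ∃ g ∈ twistedG2 (ZMod 3) 1, ιP g = MP cg4 :=
  exists_mem (w := reeWordV 1 0 0 1) ⟨0, 0, 1, Or.inr rfl⟩ (Cs := pg4) (Ci := ig4) (by decide +kernel) (by decide +kernel)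

end Cfsg.Agent.Lib.Chev.GI.R3
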