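import Cfsg.Agent.Lib.Chev.GI.R3

/-! `²G₂(3)′ ≅ PSL₂(8)`: the assembly. -/

set_option autoImplicit false

namespace Cfsg.Agent.Lib.Chev.GI.R3

open Cfsg Cfsg.Lie Cfsg.Agent.Lib.KnownSimple.LabField

section Q

variable {L : Type*} [Field L] (R : Rep L 8 add8 mul8)

/-- The matrix of a code. -/
def MQ (m : ℕ) : Matrix (Fin 2) (Fin 2) L := toM R.φ 3 7 2 m

theorem chkQ_spec {X Y Z : ℕ} (h : chkQ X Y Z = true) : MQ R Z = MQ R X * MQ R Y :=
  chkMul_spec R.hadd R.hmul R.h0 (fun _ => rfl) h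

/-- Determinant one. -/
def detQ (c : ℕ) : Bool :=
  Nat.beq (mul8 (ent 3 7 2 c 0 0) (ent 3 7 2 c 1 1)) (add8 1 (mul8 (ent 3 7 2 c 0 1) (ent 3 7 2 c 1 0)))

theorem det_of {c : ℕ} (h : detQ c = true) : (MQ R c).det = 1 := by
  have h1 := congrArg R.φ (Nat.eq_of_beq_eq_true h)
  rw [R.hmul, R.hadd, R.hmul, R.h1] at h1
  rw [Matrix.det_fin_two]
  show R.φ (ent 3 7 2 c 0 0) * R.φ (ent 3 7 2 c 1 1) - R.φ (ent 3 7 2 c 0 1) * R.φ (ent 3 7 2 c 1 0) = 1
  rw [h1]
  ring

/-- A letter. -/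
def slOf (c : ℕ) (h : detQ c = true) : Matrix.SpecialLinearGroup (Fin 2) L := ⟨MQ R c, det_of R h⟩

/-- The embedding. -/
def ιQ : Matrix.SpecialLinearGroup (Fin 2) L →* Matrix (Fin 2) (Fin 2) L where
  toFun g := (g : Matrix (Fin 2) (Fin 2) L)
  map_one' := rfl
  map_mul' _ _ := rfl

theorem ιQ_inj : Function.Injective (ιQ (L := L)) := fun _ _ h => Subtype.ext h

theorem center_bot (h2 : (2 : L) = 0) : Subgroup.center (Matrix.SpecialLinearGroup (Fin 2) L) = ⊥ := by
  rw [eq_bot_iff]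
  intro A hA
  obtain ⟨r, hr, hA'⟩ := Matrix.SpecialLinearGroup.mem_center_iff.mp hA
  rw [Fintype.card_fin] at hr
  have h3 : (r - 1) ^ 2 = 0 := by linear_combination hr - (r - 1) * h2 - h2 + h2 * r - h2 * (r - 1)
  have h4 : r = 1 := by
    have := pow_eq_zero_iff (n := 2) (by norm_num) |>.mp h3
    linear_combination this
  rw [Subgroup.mem_bot]
  apply Subtype.ext
  rw [← hA', h4]
  simp

/-- `SL₂ = PSL₂` in characteristic two. -/
def slEquiv (h2 : (2 : L) = 0) : Matrix.SpecialLinearGroup (Fin 2) L ≃* Matrix.ProjectiveSpecialLinearGroup (Fin 2) L :=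
  ((QuotientGroup.quotientMulEquivOfEq (center_bot h2)).trans QuotientGroup.quotientBot).symm

end Q

theorem comm_code {P : Type*} [Group P] {X : Type*} [Monoid X] (ι : P →* X) {g h : P} {Z : X}
    (h1 : ι (h * g) * Z = ι (g * h)) : ι (g⁻¹ * h⁻¹ * g * h) = Z := by
  have h2 : g⁻¹ * h⁻¹ * g * h = (h * g)⁻¹ * (g * h) := by group
  rw [h2, map_mul, ← h1, ← mul_assoc, ← map_mul, inv_mul_cancel, map_one, one_mul]

theorem letter_a {g h : Matrix.GeneralLinearGroup chevG2.Idx (ZMod 3)} (hg : ιP g = MP cg1) (hh : ιP h = MP cg2) :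
    ιP (g⁻¹ * h⁻¹ * g * h) = MP cA := by
  apply comm_code
  rw [map_mul, map_mul, hg, hh, ← chkP_spec (X := cg2) (Y := cg1) (Z := cg2g1) (by decide +kernel),
    ← chkP_spec (X := cg1) (Y := cg2) (Z := cg1g2) (by decide +kernel)]
  exact (chkP_spec (by decide +kernel)).symm

theorem letter_b {g h : Matrix.GeneralLinearGroup chevG2.Idx (ZMod 3)} (hg : ιP g = MP cg3) (hh : ιP h = MP cg4) :
    ιP (g⁻¹ * h⁻¹ * g * h) = MP cB := by
  apply comm_code
  rw [map_mul, map_mul, hg, hh, ← chkP_spec (X := cg4) (Y := cg3) (Z := cg4g3) (by decide +kernel),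
    ← chkP_spec (X := cg3) (Y := cg4) (Z := cg3g4) (by decide +kernel)]
  exact (chkP_spec (by decide +kernel)).symm

theorem of_all_range {f : ℕ → Bool} {n : ℕ} (h : (List.range n).all f = true) {i : ℕ} (hi : i < n) : f i = true :=
  List.all_eq_true.mp h i (List.mem_range.mpr hi)

theorem sigP_eq {i : ℕ} (hi : i < 504) : sigN 2 3 14 4 posP (mP.getD i 0) = sigP.getD i 0 :=
  Nat.eq_of_beq_eq_true (of_all_range sigPc hi)

theorem sigQ_eq {i : ℕ} (hi : i < 504) : sigN 3 7 2 8 posQ (mQ.getD i 0) = sigQ.getD i 0 :=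
  Nat.eq_of_beq_eq_true (of_all_range sigQc hi)

theorem nodup_getD {l : List ℕ} (hl : l.Nodup) {n : ℕ} (hn : l.length = n) {i j : ℕ} (hi : i < n) (hj : j < n)
    (h : l.getD i 0 = l.getD j 0) : i = j := by
  subst hn
  rw [List.getD_eq_getElem _ _ hi, List.getD_eq_getElem _ _ hj] at h
  exact (hl.getElem_inj_iff).mp h

theorem redP' {i : ℕ} (hi : i < 504) : ∀ p ∈ posP, ent 2 3 14 (mP.getD i 0) p.1 p.2 < 3 := fun p hp =>
  Nat.le_of_ble_eq_true (List.all_eq_true.mp (of_all_range redP hi) p hp)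

theorem redQ' {i : ℕ} (hi : i < 504) : ∀ p ∈ posQ, ent 3 7 2 (mQ.getD i 0) p.1 p.2 < 8 := fun p hp =>
  Nat.le_of_ble_eq_true (List.all_eq_true.mp (of_all_range redQ hi) p hp)

theorem einjP : ∀ i < 504, ∀ j < 504, MP (mP.getD i 0) = MP (mP.getD j 0) → i = j := by
  intro i hi j hj h
  have h1 := toM_sig_inj (φ := φP) φP_inj posP posP_ok (redP' hi) (redP' hj) h
  have h2 : sigN 2 3 14 4 posP (mP.getD i 0) = sigN 2 3 14 4 posP (mP.getD j 0) := by
    simp only [sigN]
    rw [h1]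
  rw [sigP_eq hi, sigP_eq hj] at h2
  exact nodup_getD nodupP lenP hi hj h2

theorem einjQ {L : Type*} [Field L] (R : Rep L 8 add8 mul8) :
    ∀ i < 504, ∀ j < 504, MQ R (mQ.getD i 0) = MQ R (mQ.getD j 0) → i = j := by
  intro i hi j hj h
  have h1 := toM_sig_inj (φ := R.φ) (q := 8) R.hinj posQ posQ_ok (redQ' hi) (redQ' hj) h
  have h2 : sigN 3 7 2 8 posQ (mQ.getD i 0) = sigN 3 7 2 8 posQ (mQ.getD j 0) := by
    simp only [sigN]
    rw [h1]
  rw [sigQ_eq hi, sigQ_eq hj] at h2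
  exact nodup_getD nodupQ lenQ hi hj h2

theorem t_out {i : ℕ} (hi : i < 504) : MP cc ≠ MP (mP.getD i 0) := by
  intro h
  have hT : ∀ p ∈ posP, ent 2 3 14 cc p.1 p.2 < 3 := fun p hp =>
    Nat.le_of_ble_eq_true (List.all_eq_true.mp redT p hp)
  have h1 := toM_sig_inj (φ := φP) φP_inj posP posP_ok hT (redP' hi) h
  have h2 : sigN 2 3 14 4 posP cc = sigN 2 3 14 4 posP (mP.getD i 0) := by
    simp only [sigN]
    rw [h1]
  rw [sigP_eq hi] at h2
  have h3 : sigP.getD i 0 ∈ sigP := by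
    rw [List.getD_eq_getElem _ _ (by rw [lenP]; exact hi)]
    exact List.getElem_mem _
  have h4 := List.all_eq_true.mp tOut _ h3
  rw [h2] at h4
  simp [Nat.beq_refl] at h4

theorem cc_eq : cc = cg1 := by decide +kernel

open scoped commutatorElement in
theorem comm_mem_map {𝔾 : Type*} [Group 𝔾] (G : Subgroup 𝔾) {g h : 𝔾} (hg : g ∈ G) (hh : h ∈ G) :
    g⁻¹ * h⁻¹ * g * h ∈ (commutator G).map G.subtype := by
  refine ⟨⁅(⟨g⁻¹, inv_mem hg⟩ : G), (⟨h⁻¹, inv_mem hh⟩ : G)⁆, ?_, ?_⟩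
  · exact Subgroup.commutator_mem_commutator (Subgroup.mem_top _) (Subgroup.mem_top _)
  · simp [commutatorElement_def]

set_option maxHeartbeats 2000000 in
theorem mainR3 {L : Type*} [Field L] [Fintype L] (hL : Fintype.card L = 8) :
    Nat.card ↥(commutator ↥(twistedG2 (ZMod 3) 1)) = 504 ∧
      Nonempty (↥(commutator ↥(twistedG2 (ZMod 3) 1)) ≃* Matrix.ProjectiveSpecialLinearGroup (Fin 2) L) := by
  classical
  obtain ⟨R⟩ := exists_rep8 hL
  have hp2 : (2 : L) = 0 := by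
    exact_mod_cast char_of_pow (F := L) (p := 2) (e := 3) (by rw [hL]; norm_num)
  obtain ⟨g1, hg1G, hg1v⟩ := hg1
  obtain ⟨g2, hg2G, hg2v⟩ := hg2
  obtain ⟨g3, hg3G, hg3v⟩ := hg3
  obtain ⟨g4, hg4G, hg4v⟩ := hg4
  set G := twistedG2 (ZMod 3) 1 with hGdef
  let a₀ := g1⁻¹ * g2⁻¹ * g1 * g2
  let b₀ := g3⁻¹ * g4⁻¹ * g3 * g4
  have ha₀ : ιP a₀ = MP cA := letter_a hg1v hg2v
  have hb₀ : ιP b₀ = MP cB := letter_b hg3v hg4v
  let a₁ : Matrix.SpecialLinearGroup (Fin 2) L := slOf R cA' (by decide +kernel)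
  let b₁ : Matrix.SpecialLinearGroup (Fin 2) L := slOf R cB' (by decide +kernel)
  let γ : ℕ → Matrix.GeneralLinearGroup chevG2.Idx (ZMod 3) := fun a => if a = 0 then a₀ else b₀
  let δ : ℕ → Matrix.SpecialLinearGroup (Fin 2) L := fun a => if a = 0 then a₁ else b₁
  have ht : Tab ιP ιQ 504 2 γ δ (fun i => MP (mP.getD i 0)) (fun i => MQ R (mQ.getD i 0)) Tget
      (fun i => parL.getD i 0) (fun i => gnL.getD i 0) := by
    refine ⟨ιP_inj, ιQ_inj, by norm_num, ?_, ?_, ?_, ?_, ?_, ?_, einjP, einjQ R⟩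
    · exact chkId_spec (φ := φP) Nat.cast_zero Nat.cast_one e0P
    · exact chkId_spec (φ := R.φ) R.h0 R.h1 e0Q
    · intro a ha i hi
      have h1 := of_all_range tabR hi
      simp only [Bool.and_eq_true] at h1
      interval_cases a
      · exact Nat.le_of_ble_eq_true h1.1
      · exact Nat.le_of_ble_eq_true h1.2
    · intro a ha i hi
      interval_cases a
      · have h1 := chkP_spec (of_all_range tabP0 hi)
        simp only [γ, if_true]
        rw [ha₀]
        exact h1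
      · have h1 := chkP_spec (of_all_range tabP1 hi)
        simp only [γ, one_ne_zero, if_false]
        rw [hb₀]
        exact h1
    · intro a ha i hi
      interval_cases a
      · have h1 := chkQ_spec R (of_all_range tabQ0 hi)
        exact h1
      · have h1 := chkQ_spec R (of_all_range tabQ1 hi)
        exact h1
    · intro i h0 hi
      have h1 := of_all_range tabTree hi
      simp only [Bool.or_eq_true, Bool.and_eq_true, Nat.beq_eq, Nat.blt_eq] at h1
      rcases h1 with h1 | ⟨⟨h1, h2⟩, h3⟩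
      · omega
      · exact ⟨h1, h2, h3⟩
  have hfin : Finite (Matrix.GeneralLinearGroup chevG2.Idx (ZMod 3)) := Finite.of_injective _ ιP_inj
  have hfin' : Finite (Matrix.SpecialLinearGroup (Fin 2) L) := Finite.of_injective _ (ιQ_inj (L := L))
  have hQ : Nat.card (Matrix.SpecialLinearGroup (Fin 2) L) = 504 := by
    rw [Nat.card_congr (slEquiv hp2).toEquiv,
      Cfsg.Agent.Lib.Classical.card_psl2_even hL (by decide)]
    norm_num
  obtain ⟨N, hN, hcard, hmem, ⟨iso⟩⟩ := ht.main hQ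
  have hγG : ∀ a, γ a ∈ G := by
    intro a
    by_cases h : a = 0
    · simp only [γ, h, if_true, a₀]
      exact mul_mem (mul_mem (mul_mem (inv_mem hg1G) (inv_mem hg2G)) hg1G) hg2G
    · simp only [γ, h, if_false, b₀]
      exact mul_mem (mul_mem (mul_mem (inv_mem hg3G) (inv_mem hg4G)) hg3G) hg4G
  have hNG : N ≤ G := by
    rw [hN, Subgroup.closure_le]
    rintro _ ⟨a, _, rfl⟩
    exact hγG a
  have hcardG : Nat.card G = 3 * Nat.card N := by
    have h1 := Cfsg.Agent.S1069.result (K := ZMod 3) (m := 0) (by simp [ZMod.card])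
    rw [hcard]
    simpa using h1
  have hfinG : Finite G := inferInstance
  have htN : g1 ∉ N := by
    intro h
    obtain ⟨i, hi, h1⟩ := (hmem g1).mp h
    rw [hg1v, ← cc_eq] at h1
    exact t_out hi h1
  have hnorm : ∀ x ∈ N, g1 * x * g1⁻¹ ∈ N := by
    intro x hx
    rw [hN] at hx
    induction hx using Subgroup.closure_induction with
    | mem x hx =>
      obtain ⟨a, ha, rfl⟩ := hx
      have ha' : a < 2 := ha
      rw [hmem]
      have key : ∀ {i cL cTL : ℕ}, i < 504 → ιP (γ a) = MP cL → chkP cg1 cL cTL = true →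
          chkP (mP.getD i 0) cg1 cTL = true → ∃ i < 504, ιP (g1 * γ a * g1⁻¹) = MP (mP.getD i 0) := by
        intro i cL cTL hi h1 h2 h3
        refine ⟨i, hi, ?_⟩
        have h4 : ιP (g1 * γ a) = MP (mP.getD i 0) * ιP g1 := by
          rw [map_mul, h1, hg1v, ← chkP_spec h2, chkP_spec h3]
        rw [map_mul, h4, mul_assoc, ← map_mul, mul_inv_cancel, map_one, mul_one]
      interval_cases a
      · exact key (i := iA) (cL := cA) (cTL := cTA) (by decide +kernel) ha₀ (by decide +kernel) (by decide +kernel)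
      · exact key (i := iB) (cL := cB) (cTL := cTB) (by decide +kernel) hb₀ (by decide +kernel) (by decide +kernel)
    | one => simp
    | mul x y _ _ hx hy =>
      have h : g1 * (x * y) * g1⁻¹ = (g1 * x * g1⁻¹) * (g1 * y * g1⁻¹) := by group
      rw [h]
      exact mul_mem hx hy
    | inv x _ hx =>
      have h : g1 * x⁻¹ * g1⁻¹ = (g1 * x * g1⁻¹)⁻¹ := by group
      rw [h]
      exact inv_mem hx
  have hcomm : N ≤ (commutator G).map G.subtype := by
    rw [hN, Subgroup.closure_le]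
    rintro _ ⟨a, _, rfl⟩
    by_cases h : a = 0
    · simp only [γ, h, if_true, a₀]
      exact comm_mem_map G hg1G hg2G
    · simp only [γ, h, if_false, b₀]
      exact comm_mem_map G hg3G hg4G
  have E := commutator_eq G N Nat.prime_three hNG hcardG g1 hg1G htN hnorm hcomm
  have iso0 : ↥(commutator ↥G) ≃* ↥((commutator ↥G).map G.subtype) :=
    Subgroup.equivMapOfInjective _ _ Subtype.val_injective
  have iso1 : ↥(commutator ↥G) ≃* ↥N := iso0.trans (MulEquiv.subgroupCongr E)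
  constructor
  · rw [Nat.card_congr iso1.toEquiv, hcard]
  · exact ⟨iso1.trans (iso.trans (slEquiv hp2))⟩

end Cfsg.Agent.Lib.Chev.GI.R3
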