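import Cfsg.Agent.Lib.Chev.GI.R3Data
import Cfsg.Agent.Lib.KnownSimple.LabField

/-! `²G₂(3)′ ≅ PSL₂(8)`: the heavy checks. -/

set_option autoImplicit false

namespace Cfsg.Agent.Lib.Chev.GI.R3

open Cfsg.Agent.Lib.KnownSimple.LabField

/-- A product of codes. -/
def chkP (X Y Z : ℕ) : Bool := chkMul Nat.add Nat.mul (fun x => Nat.mod x 3) 2 3 14 X Y Z

/-- The table of a letter. -/
def Tget (a i : ℕ) : ℕ := if Nat.beq a 0 then T0.getD i 0 else T1.getD i 0

/-- A row of the table in the first group. -/
def chkTabP (a L : ℕ) : Bool :=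
  (List.range 504).all fun i => chkP (mP.getD i 0) L (mP.getD (Tget a i) 0)

set_option maxRecDepth 100000 in
theorem tabP0 : chkTabP 0 cA = true := by decide +kernel
set_option maxRecDepth 100000 in
theorem tabP1 : chkTabP 1 cB = true := by decide +kernel

/-- A product of codes in the field with 8 elements. -/
def chkQ (X Y Z : ℕ) : Bool := chkMul add8 mul8 id 3 7 2 X Y Z

/-- A row of the table in the second group. -/
def chkTabQ (a L : ℕ) : Bool :=
  (List.range 504).all fun i => chkQ (mQ.getD i 0) L (mQ.getD (Tget a i) 0)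

set_option maxRecDepth 100000 in
theorem tabQ0 : chkTabQ 0 cA' = true := by decide +kernel
set_option maxRecDepth 100000 in
theorem tabQ1 : chkTabQ 1 cB' = true := by decide +kernel

end Cfsg.Agent.Lib.Chev.GI.R3
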