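import Cfsg.Agent.Lib.Chev.GI.TitsData
import Cfsg.Agent.Lib.KnownSimple.TitsLab.Letters

/-! The primitivity certificate for the Tits group on 1755 points: checks and the combinatorial consequence. -/

set_option autoImplicit false
set_option maxRecDepth 100000

namespace Cfsg.Agent.Lib.Chev.GI.Tits

open Cfsg.Agent.Lib.KnownSimple.Lab Cfsg.Agent.Lib.KnownSimple.TitsLab

/-- A field of a table. -/
def gt (T w i : ℕ) : ℕ := Nat.shiftRight T (w * i) % 2 ^ w

/-- The words. -/
def hWd (k : ℕ) : List ℕ := hWL.getD k []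
/-- The transversal. -/
def uW (p : ℕ) : List ℕ := uWL.getD p []
/-- The forest. -/
def sp (q : ℕ) : ℕ := gt TSP 11 q
/-- The forest. -/
def sh (q : ℕ) : ℕ := gt TSH 2 q
/-- The forest. -/
def dp (q : ℕ) : ℕ := gt TDP 4 q

/-- The certificates. -/
def tA (j p : ℕ) : ℕ := gt (match j with | 0 => TA0 | 1 => TA1 | 2 => TA2 | _ => TA3) 11 p
/-- The certificates. -/
def tC (j p : ℕ) : ℕ := gt (match j with | 0 => TC0 | 1 => TC1 | 2 => TC2 | _ => TC3) 11 p
/-- The certificates. -/
def tR (j p : ℕ) : ℕ := gt (match j with | 0 => TR0 | 1 => TR1 | 2 => TR2 | _ => TR3) 4 p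

theorem c_hW : ∀ k < 4, (∀ a ∈ hWd k, a < 4) ∧ walk Cfsg.Agent.Lib.KnownSimple.TitsLab.V (hWd k) 0 = 0 := by decide +kernel

/-- The transversal is right. -/
def uChk (a : ℕ) : Bool := Nat.beq (walk Cfsg.Agent.Lib.KnownSimple.TitsLab.V (uW a) 0) a && (uW a).all (fun b => Nat.blt b 4)

theorem c_uW : allI uChk 0 1755 = true := by decide +kernel

/-- The forest is right. -/
def tChk (q : ℕ) : Bool :=
  Nat.beq q 0 || repsL.contains q || (Nat.blt (sp q) 1755 && !(Nat.beq (sp q) 0) && Nat.blt (dp (sp q)) (dp q) &&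
    Nat.blt (sh q) 4 && Nat.beq (walk Cfsg.Agent.Lib.KnownSimple.TitsLab.V (hWd (sh q)) q) (sp q))

theorem c_t : allI tChk 0 1755 = true := by decide +kernel

/-- A certificate is right. -/
def cChk (j p : ℕ) : Bool :=
  Nat.beq p 0 || Nat.beq p (repsL.getD j 0) || (Nat.blt (tA j p) 1755 && Nat.blt (tC j p) 1755 &&
    Nat.blt (tR j (tA j p)) (tR j p) && Nat.blt (tR j (tC j p)) (tR j p) &&
    Nat.beq (walk Cfsg.Agent.Lib.KnownSimple.TitsLab.V (uW (tA j p)) (tC j p)) p)

theorem c_c0 : allI (cChk 0) 0 1755 = true := by decide +kernel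
theorem c_c1 : allI (cChk 1) 0 1755 = true := by decide +kernel
theorem c_c2 : allI (cChk 2) 0 1755 = true := by decide +kernel
theorem c_c3 : allI (cChk 3) 0 1755 = true := by decide +kernel

theorem c_cAll : ∀ j < 4, ∀ p < 1755, cChk j p = true := by
  intro j hj p hp
  interval_cases j
  · exact of_allI c_c0 p (Nat.zero_le _) (by omega)
  · exact of_allI c_c1 p (Nat.zero_le _) (by omega)
  · exact of_allI c_c2 p (Nat.zero_le _) (by omega)
  · exact of_allI c_c3 p (Nat.zero_le _) (by omega)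

theorem repsL_mem {r : ℕ} (h : r ∈ repsL) : ∃ j < 4, repsL.getD j 0 = r := by
  revert r
  decide +kernel

/-- Primitivity: a block containing the base point and another point is everything. -/
theorem block_all (B : ℕ → Prop) (h0 : B 0)
    (h1 : ∀ w : List ℕ, (∀ a ∈ w, a < 4) → B (walk Cfsg.Agent.Lib.KnownSimple.TitsLab.V w 0) → ∀ c < 1755, B c → B (walk Cfsg.Agent.Lib.KnownSimple.TitsLab.V w c))
    (h2 : ∃ q < 1755, q ≠ 0 ∧ B q) : ∀ i < 1755, B i := by
  obtain ⟨q, hq, hq0, hBq⟩ := h2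
  have step1 : ∀ d q, dp q = d → q < 1755 → q ≠ 0 → B q → ∃ r ∈ repsL, B r := by
    intro d
    induction d using Nat.strong_induction_on with
    | _ d ih =>
      intro q hd hq hq0 hB
      have h3 := of_allI c_t q (Nat.zero_le _) (by omega)
      simp only [tChk, Bool.or_eq_true, Bool.and_eq_true, Nat.beq_eq, Nat.blt_eq, Bool.not_eq_true',
        List.contains_iff_mem] at h3
      rcases h3 with (h3 | h3) | ⟨⟨⟨⟨h4, h5⟩, h6⟩, h7⟩, h8⟩
      · exact absurd h3 hq0
      · exact ⟨q, h3, hB⟩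
      · obtain ⟨h9, h10⟩ := c_hW (sh q) h7
        have h11 := h1 (hWd (sh q)) h9 (by rw [h10]; exact h0) q hq hB
        rw [h8] at h11
        have h12 : sp q ≠ 0 := by
          intro e
          rw [e] at h5
          simp at h5
        exact ih (dp (sp q)) (by omega) (sp q) rfl h4 h12 h11
  obtain ⟨r, hr, hBr⟩ := step1 _ q rfl hq hq0 hBq
  obtain ⟨j, hj, rfl⟩ := repsL_mem hr
  have step2 : ∀ d p, tR j p = d → p < 1755 → B p := by
    intro d
    induction d using Nat.strong_induction_on with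
    | _ d ih =>
      intro p hd hp
      have h3 := c_cAll j hj p hp
      simp only [cChk, Bool.or_eq_true, Bool.and_eq_true, Nat.beq_eq, Nat.blt_eq] at h3
      rcases h3 with (h3 | h3) | ⟨⟨⟨⟨h4, h5⟩, h6⟩, h7⟩, h8⟩
      · rw [h3]; exact h0
      · rw [h3]; exact hBr
      · have hu := of_allI c_uW (tA j p) (Nat.zero_le _) (by omega)
        simp only [uChk, Bool.and_eq_true, Nat.beq_eq, List.all_eq_true, Nat.blt_eq] at hu
        have hBa : B (tA j p) := ih _ (by omega) _ rfl h4
        have hBc : B (tC j p) := ih _ (by omega) _ rfl h5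
        have h9 := h1 (uW (tA j p)) hu.2 (by rw [hu.1]; exact hBa) (tC j p) h5 hBc
        rwa [h8] at h9
  exact fun i hi => step2 _ i rfl hi

end Cfsg.Agent.Lib.Chev.GI.Tits
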