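import Cfsg.Agent.Lib.Chev.GI.TitsChk
import Cfsg.Agent.Lib.KnownSimple.TitsLab.Rep
import Cfsg.Agent.S0144
import Cfsg.Agent.S1068

/-! The Tits group is simple: primitive action on 1755 points, solvable point stabilizer, perfect. -/

set_option autoImplicit false
set_option maxRecDepth 100000

namespace Cfsg.Agent.Lib.Chev.GI.Tits

open Cfsg Cfsg.Lie Cfsg.Agent.Lib.KnownSimple.Lab Cfsg.Agent.Lib.KnownSimple.LabField
open Cfsg.Agent.Lib.KnownSimple.LabChev Cfsg.Agent.Lib.KnownSimple.LabPack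
open Cfsg.Agent.Lib.KnownSimple.LabVec Cfsg.Agent.Lib.KnownSimple.LabMat
open Cfsg.Agent.Lib.KnownSimple.TitsLab Cfsg.Agent.Lib.KnownSimple.TitsLab.Rp
open scoped Matrix

theorem perfect_solvable {G Q : Type*} [Group G] [Group Q] (f : G →* Q) (hf : Function.Surjective f)
    (hG : commutator G = ⊤) [Group.IsSolvable Q] : Subsingleton Q := by
  have h1 : ∀ n, derivedSeries G n = ⊤ := by
    intro n
    induction n with
    | zero => rfl
    | succ n ih =>
      rw [derivedSeries_succ, ih]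
      exact hG
  obtain ⟨n, hn⟩ := Group.IsSolvable.solvable (G := Q)
  have h2 := map_derivedSeries_eq hf n
  rw [h1, hn, ← MonoidHom.range_eq_map, MonoidHom.range_eq_top.mpr hf] at h2
  have h3 : ∀ a : Q, a = 1 := by
    intro a
    have h4 : a ∈ (⊥ : Subgroup Q) := by
      rw [← h2]
      exact Subgroup.mem_top a
    exact Subgroup.mem_bot.mp h4
  exact ⟨fun a b => by rw [h3 a, h3 b]⟩

theorem wval_mem_comm {G : Type*} [Group G] (ζ : ℕ → G) (s : ℕ) (hζ : ∀ b < s, ζ (b + s) = (ζ b)⁻¹)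
    (w : List ℕ) (hw : ∀ a ∈ w, a < 2 * s) (hbal : balanced s w = true) : wval ζ w ∈ commutator G := by
  rw [← Abelianization.ker_of, MonoidHom.mem_ker, map_wval]
  apply wval_balanced s _ _ _ hw hbal
  intro b hb
  rw [← map_inv, hζ b hb]

theorem not_comm_of_perfect {G : Type*} [Group G] [Nontrivial G] (h : commutator G = ⊤) : ¬ IsMulCommutative G := by
  intro hcomm
  have h2 : commutator G ≤ ⊥ := by
    rw [commutator_def, Subgroup.commutator_le]
    intro g₁ _ g₂ _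
    rw [Subgroup.mem_bot, commutatorElement_eq_one_iff_mul_comm]
    exact hcomm.is_comm.comm g₁ g₂
  obtain ⟨x, hx⟩ := exists_ne (1 : G)
  have h3 : x ∈ commutator G := by
    rw [h]
    exact Subgroup.mem_top x
  exact hx (Subgroup.mem_bot.mp (h2 h3))

section main

variable (R : Rep (ZMod 2) 2 add2 mul2)

/-- The points. -/
noncomputable def Pt (i : ℕ) : Fin (dd chevF4) → ZMod 2 := toV R.φ (dd chevF4) (pt i)

theorem hL4 : ∀ a < 4, ∀ i < 1755, Cfsg.Agent.Lib.KnownSimple.TitsLab.V a i < 1755 ∧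
    iotaT (lt R a) *ᵥ Pt R i = Pt R (Cfsg.Agent.Lib.KnownSimple.TitsLab.V a i) := by
  intro a ha i hi
  rw [iotaT_lt R a ha]
  exact hLet R a (by omega) i hi

theorem word_act (w : List ℕ) (hw : ∀ a ∈ w, a < 4) (i : ℕ) (hi : i < 1755) :
    walk Cfsg.Agent.Lib.KnownSimple.TitsLab.V w i < 1755 ∧
      iotaT (wval (lt R) w) *ᵥ Pt R i = Pt R (walk Cfsg.Agent.Lib.KnownSimple.TitsLab.V w i) :=
  word_pts iotaT (hL4 R) w hw i hi

theorem iotaT_inj : Function.Injective (iotaT : TitsGroup →* _) := by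
  intro g h e
  have h1 : (((g.1.1 : Matrix.GeneralLinearGroup chevF4.Idx (ZMod 2))) : Matrix chevF4.Idx chevF4.Idx (ZMod 2)) =
      (((h.1.1 : Matrix.GeneralLinearGroup chevF4.Idx (ZMod 2))) : Matrix chevF4.Idx chevF4.Idx (ZMod 2)) :=
    (Matrix.reindex (eqv chevF4).symm (eqv chevF4).symm).injective e
  exact Subtype.ext (Subtype.ext (Units.ext h1))

theorem eq_one_of_fix (g : TitsGroup) (h : ∀ i < 1755, iotaT g *ᵥ Pt R i = Pt R i) : g = 1 := by
  apply iotaT_inj
  rw [map_one]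
  refine eq_one_of_base_pack R _ c_xor (fun k => ptc (bsL.getD k 0)) Cp c_Cp c_two ?_
  intro k hk
  have h3 := h (bsL.getD k 0) (c_bsl k hk)
  simp only [Pt, hPu] at h3
  exact h3

theorem stays (g : TitsGroup) : ∀ i < 1755, ∃ j < 1755, iotaT g *ᵥ Pt R i = Pt R j := by
  have hg : g ∈ Subgroup.closure (lt R '' {a | a < 2 * 2}) := by
    rw [hgenlt R]
    exact Subgroup.mem_top g
  have hinv : ∀ a < 4, ∃ b < 4, (lt R a)⁻¹ = lt R b := by
    intro a ha
    by_cases h : a < 2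
    · exact ⟨a + 2, by omega, (hgi R a h).symm⟩
    · obtain ⟨b, rfl⟩ : ∃ b, a = b + 2 := ⟨a - 2, by omega⟩
      exact ⟨b, by omega, by rw [hgi R b (by omega), inv_inv]⟩
  induction hg using Subgroup.closure_induction_left with
  | one =>
    intro i hi
    exact ⟨i, hi, by rw [map_one, Matrix.one_mulVec]⟩
  | mul_left x hx y _ ih =>
    obtain ⟨a, ha, rfl⟩ := hx
    intro i hi
    obtain ⟨j, hj, h1⟩ := ih i hi
    obtain ⟨h2, h3⟩ := hL4 R a ha j hj
    exact ⟨_, h2, by rw [map_mul, ← Matrix.mulVec_mulVec, h1, h3]⟩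
  | inv_mul_cancel x hx y _ ih =>
    obtain ⟨a, ha, rfl⟩ := hx
    obtain ⟨b, hb, e⟩ := hinv a ha
    intro i hi
    obtain ⟨j, hj, h1⟩ := ih i hi
    obtain ⟨h2, h3⟩ := hL4 R b hb j hj
    exact ⟨_, h2, by rw [e, map_mul, ← Matrix.mulVec_mulVec, h1, h3]⟩

theorem uW_act {p : ℕ} (hp : p < 1755) :
    iotaT (wval (lt R) (uW p)) *ᵥ Pt R 0 = Pt R p ∧ ∀ a ∈ uW p, a < 4 := by
  have hu := of_allI c_uW p (Nat.zero_le _) (by omega)
  simp only [uChk, Bool.and_eq_true, Nat.beq_eq, List.all_eq_true, Nat.blt_eq] at hu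
  have h1 := (word_act R (uW p) hu.2 0 (by norm_num)).2
  rw [hu.1] at h1
  exact ⟨h1, hu.2⟩

omit R in
theorem perfectT (R : Rep (ZMod 2) 2 add2 mul2) : commutator TitsGroup = ⊤ := by
  rw [eq_top_iff, ← hgenlt R, Subgroup.closure_le]
  have hA : ∀ a < 2, lt R a ∈ commutator TitsGroup := by
    intro a ha
    have h1 := heqlt R (gw a ++ [a + 2]) (by
      intro b hb
      rw [List.mem_append] at hb
      rcases hb with hb | hb
      · exact hgw1 a ha b hb
      · simp only [List.mem_cons, List.not_mem_nil, or_false] at hb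
        omega) (c_gw a ha)
    rw [wval_append, wval_cons, wval_nil, mul_one, hgi R a ha] at h1
    have h2 : wval (lt R) (gw a) = lt R a := mul_inv_eq_one.mp h1
    rw [← h2]
    exact wval_mem_comm _ 2 (hgi R) _ (hgw1 a ha) (hgw3 a ha)
  rintro _ ⟨a, ha, rfl⟩
  have ha' : a < 4 := ha
  by_cases h : a < 2
  · exact hA a h
  · obtain ⟨b, rfl⟩ : ∃ b, a = b + 2 := ⟨a - 2, by omega⟩
    rw [hgi R b (by omega)]
    exact inv_mem (hA b (by omega))

omit R in
theorem finT (R : Rep (ZMod 2) 2 add2 mul2) : Finite TitsGroup := by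
  apply Nat.finite_of_card_ne_zero
  rw [hcard R]
  norm_num

set_option warn.classDefReducibility false in
/-- The linear action on vectors. -/
noncomputable def act : MulAction TitsGroup (Fin (dd chevF4) → ZMod 2) where
  smul g v := iotaT g *ᵥ v
  one_smul v := by
    show iotaT 1 *ᵥ v = v
    rw [map_one, Matrix.one_mulVec]
  mul_smul g h v := by
    show iotaT (g * h) *ᵥ v = iotaT g *ᵥ (iotaT h *ᵥ v)
    rw [map_mul, Matrix.mulVec_mulVec]

theorem card_stab :
    letI := act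
    Nat.card (MulAction.stabilizer TitsGroup (Pt R 0)) = 2 ^ 11 * 5 ^ 1 := by
  let _ := act
  have h0 : Finite TitsGroup := finT R
  have h1 := Subgroup.card_mul_index (MulAction.stabilizer TitsGroup (Pt R 0))
  rw [MulAction.index_stabilizer, hcard R] at h1
  have h2 : MulAction.orbit TitsGroup (Pt R 0) = Pt R '' (↑(Finset.range 1755) : Set ℕ) := by
    ext v
    constructor
    · rintro ⟨g, rfl⟩
      obtain ⟨j, hj, e⟩ := stays R g 0 (by norm_num)
      exact ⟨j, by simpa using hj, e.symm⟩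
    · rintro ⟨j, hj, rfl⟩
      have hj' : j < 1755 := by simpa using hj
      exact ⟨wval (lt R) (uW j), (uW_act R hj').1⟩
  have h3 : (MulAction.orbit TitsGroup (Pt R 0)).ncard = 1755 := by
    rw [h2, Set.InjOn.ncard_image, Set.ncard_coe_finset, Finset.card_range]
    intro i hi j hj e
    exact Cfsg.Agent.Lib.KnownSimple.TitsLab.Rp.hP R i (by simpa using hi) j (by simpa using hj) e
  rw [h3] at h1
  omega

theorem act2 (x y : TitsGroup) (v : Fin (dd chevF4) → ZMod 2) : iotaT (x * y) *ᵥ v = iotaT x *ᵥ (iotaT y *ᵥ v) := by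
  rw [map_mul, Matrix.mulVec_mulVec]

omit R in
theorem simple_aux (R : Rep (ZMod 2) 2 add2 mul2) (N : Subgroup TitsGroup) (hN : N.Normal) (hne : N ≠ ⊥) : N = ⊤ := by
  let _ := act
  have h0 : Finite TitsGroup := finT R
  let B : ℕ → Prop := fun i => i < 1755 ∧ ∃ n ∈ N, iotaT n *ᵥ Pt R 0 = Pt R i
  have hB0 : B 0 := ⟨by norm_num, 1, one_mem _, by rw [map_one, Matrix.one_mulVec]⟩
  have hB1 : ∀ w : List ℕ, (∀ a ∈ w, a < 4) → B (walk Cfsg.Agent.Lib.KnownSimple.TitsLab.V w 0) →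
      ∀ c < 1755, B c → B (walk Cfsg.Agent.Lib.KnownSimple.TitsLab.V w c) := by
    rintro w hw ⟨_, n, hn, e1⟩ c hc ⟨_, m, hm, e2⟩
    obtain ⟨h3, h4⟩ := word_act R w hw c hc
    obtain ⟨_, h5⟩ := word_act R w hw 0 (by norm_num)
    set g := wval (lt R) w with hg
    refine ⟨h3, (g * m * g⁻¹) * n, mul_mem (hN.conj_mem m hm g) hn, ?_⟩
    have h6 : g * m * g⁻¹ * g = g * m := by group
    rw [act2, e1, ← h5, ← act2, h6, act2, e2, h4]
  have hB2 : ∃ q < 1755, q ≠ 0 ∧ B q := by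
    by_contra hcon
    push Not at hcon
    apply hne
    rw [Subgroup.eq_bot_iff_forall]
    intro n hn
    have fix0 : ∀ n ∈ N, iotaT n *ᵥ Pt R 0 = Pt R 0 := by
      intro n hn
      obtain ⟨j, hj, e⟩ := stays R n 0 (by norm_num)
      by_cases hj0 : j = 0
      · rw [e, hj0]
      · exact absurd (⟨hj, n, hn, e⟩ : B j) (hcon j hj hj0)
    apply eq_one_of_fix R
    intro i hi
    obtain ⟨h1, _⟩ := uW_act R hi
    set g := wval (lt R) (uW i) with hg
    rw [← h1]
    have h4 := fix0 (g⁻¹ * n * g⁻¹⁻¹) (hN.conj_mem n hn g⁻¹)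
    rw [inv_inv] at h4
    have h5 : n * g = g * (g⁻¹ * n * g) := by group
    rw [← act2, h5, act2, h4]
  have hall := block_all B hB0 hB1 hB2
  have hsol : Group.IsSolvable (MulAction.stabilizer TitsGroup (Pt R 0)) :=
    Cfsg.Agent.S0144.result 2 5 11 1 Nat.prime_two Nat.prime_five (card_stab R)
  have hN' := hN
  let f : (MulAction.stabilizer TitsGroup (Pt R 0)) →* TitsGroup ⧸ N :=
    (QuotientGroup.mk' N).comp (MulAction.stabilizer TitsGroup (Pt R 0)).subtype
  have hf : Function.Surjective f := by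
    intro q
    obtain ⟨g, rfl⟩ := QuotientGroup.mk_surjective q
    obtain ⟨j, hj, e⟩ := stays R g 0 (by norm_num)
    obtain ⟨_, n, hn, e'⟩ := hall j hj
    have hx : n⁻¹ * g ∈ MulAction.stabilizer TitsGroup (Pt R 0) := by
      rw [MulAction.mem_stabilizer_iff]
      show iotaT (n⁻¹ * g) *ᵥ Pt R 0 = Pt R 0
      rw [act2, e, ← e', ← act2, inv_mul_cancel, map_one, Matrix.one_mulVec]
    refine ⟨⟨n⁻¹ * g, hx⟩, ?_⟩
    show ((n⁻¹ * g : TitsGroup) : TitsGroup ⧸ N) = (g : TitsGroup ⧸ N)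
    rw [QuotientGroup.eq]
    have h4 := hN.conj_mem n hn g⁻¹
    rw [inv_inv] at h4
    have h5 : (n⁻¹ * g)⁻¹ * g = g⁻¹ * n * g := by group
    rw [h5]
    exact h4
  have hsolQ : Group.IsSolvable (TitsGroup ⧸ N) := Group.isSolvable_of_surjective hf
  have hsub : Subsingleton (TitsGroup ⧸ N) :=
    perfect_solvable (QuotientGroup.mk' N) (QuotientGroup.mk'_surjective N) (perfectT R)
  rw [eq_top_iff]
  intro g _
  rw [← QuotientGroup.eq_one_iff]
  exact Subsingleton.elim _ _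

end main

theorem mainTits : (commutator ↥(Cfsg.Lie.twistedF4 (ZMod 2) 1)).index = 2 ∧ IsSimpleGroup Cfsg.Lie.TitsGroup ∧
    ¬ IsMulCommutative Cfsg.Lie.TitsGroup ∧ Nat.card Cfsg.Lie.TitsGroup = 2 ^ 11 * 3 ^ 3 * 5 ^ 2 * 13 := by
  obtain ⟨R⟩ := exists_rep2 (F := ZMod 2) (ZMod.card 2)
  have hc := hcard R
  have hnt : Nontrivial Cfsg.Lie.TitsGroup := by
    have h0 : Finite Cfsg.Lie.TitsGroup := finT R
    apply (Finite.one_lt_card_iff_nontrivial).mp
    rw [hc]
    norm_num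
  refine ⟨?_, ?_, ?_, by rw [hc]; norm_num⟩
  · have h1 := Subgroup.card_mul_index (commutator ↥(Cfsg.Lie.twistedF4 (ZMod 2) 1))
    have h2 := Cfsg.Agent.S1068.result (K := ZMod 2) (m := 0) (by simp [ZMod.card])
    have h3 : Nat.card ↥(commutator ↥(Cfsg.Lie.twistedF4 (ZMod 2) 1)) = 17971200 := hc
    rw [h3] at h1
    have h5 : ((2 : ℕ) ^ (2 * 0 + 1)) ^ 12 * (2 ^ (2 * 0 + 1) - 1) * ((2 ^ (2 * 0 + 1)) ^ 3 + 1) * ((2 ^ (2 * 0 + 1)) ^ 4 - 1) * ((2 ^ (2 * 0 + 1)) ^ 6 + 1) = 35942400 := by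
      norm_num
    rw [h5] at h2
    have h4 : Nat.card ↥(Cfsg.Lie.twistedF4 (ZMod 2) 1) = 35942400 := h2
    rw [h4] at h1
    omega
  · refine ⟨fun N hN => ?_⟩
    by_cases h : N = ⊥
    · exact Or.inl h
    · exact Or.inr (simple_aux R N hN h)
  · exact @not_comm_of_perfect Cfsg.Lie.TitsGroup _ hnt (perfectT R)

end Cfsg.Agent.Lib.Chev.GI.Tits
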