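import Cfsg.Agent.Lib.Chev.GI.U3Tab
import Cfsg.Agent.Lib.Chev.GI.R3Fin
import Cfsg.Agent.Lib.Components.U33Con
import Cfsg.Agent.Lib.Components.U33ChkC1
import Cfsg.Agent.Lib.Components.U33ChkC2
import Cfsg.Agent.Lib.Classical.SUOrder
import Cfsg.Agent.S1059

/-! `G₂(2)′ ≅ PSU₃(3)`: the assembly. -/

set_option autoImplicit false
set_option maxRecDepth 100000

namespace Cfsg.Agent.Lib.Chev.GI.U3

open Cfsg Cfsg.Lie
open Cfsg.Agent.Lib.KnownSimple.Lab Cfsg.Agent.Lib.KnownSimple.LabField
open Cfsg.Agent.Lib.Components.U33 (nx get)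

variable {D : ChevalleyDatum} {F₁ F₂ : Type*} [Field F₁] [Field F₂]

theorem xMat_mapR (f : F₁ →+* F₂) (r : Fin D.nroots) (t : F₁) :
    (D.xMat F₁ r t).map f = D.xMat F₂ r (f t) := by
  ext row col
  simp only [Matrix.map_apply, ChevalleyDatum.xMat, Matrix.of_apply]
  rcases col with i | s
  · rcases row with i' | u
    · simp only
      split_ifs <;> simp
    · simp only
      split_ifs <;> simp
  · simp only
    split_ifs with h1 h2
    · rcases row with i' | u
      · simp
      · simp only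
        split_ifs <;> simp
    · rcases row with i' | u
      · simp
      · simp only
        split_ifs <;> simp
    · rcases row with i' | u
      · simp
      · simp only [map_add, map_list_sum, List.map_map]
        congr 1
        · split_ifs <;> simp
        · congr 1
          apply List.map_congr_left
          intro km _
          simp

/-- Root elements. -/
def XB (r : ℕ) : ℕ := XBs.getD r 0

theorem hx_dec : ∀ r : Fin 12, ∀ i j : Fin 14,
    chevG2.x (ZMod 2) r 1 (R3.EE.symm i) (R3.EE.symm j) = bφ ((XB r).testBit (14 * i + j)) := by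
  decide +kernel

section field

variable {F : Type*} [Field F]

/-- Reindexing. -/
def RI (F : Type*) [Field F] : Matrix chevG2.Idx chevG2.Idx F ≃ₐ[F] Matrix (Fin 14) (Fin 14) F :=
  Matrix.reindexAlgEquiv F F R3.EE

/-- The embedding of `GL`. -/
def ιF (F : Type*) [Field F] : Matrix.GeneralLinearGroup chevG2.Idx F →* Matrix (Fin 14) (Fin 14) F :=
  ((RI F).toRingEquiv.toMonoidHom).comp (Units.coeHom _)

theorem ιF_inj : Function.Injective (ιF F) := by
  intro g h e
  exact Units.ext ((RI F).injective e)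

theorem hx (ψ : ZMod 2 →+* F) {r : ℕ} (hr : r < 12) : RI F (chevG2.x F r 1) = toB F 14 (XB r) := by
  ext i j
  have h1 := hx_dec ⟨r, hr⟩ i j
  have h2 : chevG2.x F r 1 = (chevG2.x (ZMod 2) r 1).map ψ := by
    have hr' : r < chevG2.nroots := hr
    rw [ChevalleyDatum.x, ChevalleyDatum.x, dif_pos hr', dif_pos hr', xMat_mapR, map_one]
  have h3 : (RI F (chevG2.x F r 1)) i j = chevG2.x F r 1 (R3.EE.symm i) (R3.EE.symm j) := rfl
  rw [h3, h2, Matrix.map_apply, h1]
  simp only [toB, Matrix.of_apply]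
  cases (XB r).testBit (14 * i + j) <;> simp [bφ]

/-- Multiplication of bit codes. -/
def m14 : ℕ := 16383

theorem m14_eq : m14 = 2 ^ 14 - 1 := by norm_num [m14]

theorem chk_spec (h2 : (2 : F) = 0) {L X Z : ℕ} (h : chkB 14 16383 L X Z = true) :
    toB F 14 Z = toB F 14 L * toB F 14 X :=
  chkB_spec h2 (d := 14) (by simpa using h)

theorem chkI_spec {X : ℕ} (h : chkIdB 14 16383 X = true) : toB F 14 X = 1 :=
  chkIdB_spec (d := 14) (by simpa using h)

theorem x_inv : ∀ r < 12, chkB 14 16383 (XB r) (XB r) cI = true := by decide +kernel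

theorem cI_ok : chkIdB 14 16383 cI = true := by decide +kernel

theorem exists_x (ψ : ZMod 2 →+* F) (h2 : (2 : F) = 0) {r : ℕ} (hr : r < 12) :
    ∃ g ∈ chevG2.group F, ιF F g = toB F 14 (XB r) := by
  have hr' : r < chevG2.nroots := hr
  have h3 : chevG2.x F r 1 * chevG2.x F r 1 = 1 := by
    apply (RI F).injective
    rw [map_mul, hx ψ hr, ← chk_spec h2 (x_inv r hr), chkI_spec cI_ok, map_one]
  let g : Matrix.GeneralLinearGroup chevG2.Idx F := ⟨chevG2.x F r 1, chevG2.x F r 1, h3, h3⟩
  refine ⟨g, Subgroup.subset_closure ⟨⟨r, hr'⟩, 1, ?_⟩, hx ψ hr⟩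
  show chevG2.x F r 1 = _
  rw [ChevalleyDatum.x, dif_pos hr']

/-- A word and its partial products. -/
def wChk : List ℕ → List ℕ → ℕ → Bool
  | [], [], C => chkIdB 14 16383 C
  | r :: w, C' :: Cs, C => chkB 14 16383 (XB r) C' C && Nat.blt r 12 && wChk w Cs C'
  | _, _, _ => false

theorem wChk_spec (ψ : ZMod 2 →+* F) (h2 : (2 : F) = 0) : ∀ (w Cs : List ℕ) (C : ℕ), wChk w Cs C = true →
    ∃ g ∈ chevG2.group F, ιF F g = toB F 14 C := by
  intro w
  induction w with
  | nil =>
    intro Cs C h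
    cases Cs with
    | nil =>
      refine ⟨1, one_mem _, ?_⟩
      rw [map_one, chkI_spec (by simpa [wChk] using h)]
    | cons _ _ => simp [wChk] at h
  | cons r w ih =>
    intro Cs C h
    cases Cs with
    | nil => simp [wChk] at h
    | cons C' Cs =>
      simp only [wChk, Bool.and_eq_true] at h
      obtain ⟨⟨h3, h4⟩, h5⟩ := h
      obtain ⟨g', hg', e'⟩ := ih Cs C' h5
      obtain ⟨x, hx', e⟩ := exists_x ψ h2 (Nat.le_of_ble_eq_true h4)
      refine ⟨x * g', mul_mem hx' hg', ?_⟩
      rw [map_mul, e, e']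
      exact (chk_spec h2 h3).symm

theorem letter_a (h2 : (2 : F) = 0) {g h : Matrix.GeneralLinearGroup chevG2.Idx F}
    (hg : ιF F g = toB F 14 cg1) (hh : ιF F h = toB F 14 cg2) :
    ιF F (g⁻¹ * h⁻¹ * g * h) = toB F 14 cA := by
  apply R3.comm_code
  rw [map_mul, map_mul, hg, hh, ← chk_spec h2 (L := cg2) (X := cg1) (Z := cg2g1) (by decide +kernel),
    ← chk_spec h2 (L := cg1) (X := cg2) (Z := cg1g2) (by decide +kernel)]
  exact (chk_spec h2 (by decide +kernel)).symm

theorem letter_b (h2 : (2 : F) = 0) {g h : Matrix.GeneralLinearGroup chevG2.Idx F}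
    (hg : ιF F g = toB F 14 cg3) (hh : ιF F h = toB F 14 cg4) :
    ιF F (g⁻¹ * h⁻¹ * g * h) = toB F 14 cB := by
  apply R3.comm_code
  rw [map_mul, map_mul, hg, hh, ← chk_spec h2 (L := cg4) (X := cg3) (Z := cg4g3) (by decide +kernel),
    ← chk_spec h2 (L := cg3) (X := cg4) (Z := cg3g4) (by decide +kernel)]
  exact (chk_spec h2 (by decide +kernel)).symm

theorem Mc_lt (i : ℕ) : Mc i < 2 ^ (14 * 14) := Nat.mod_lt _ (by positivity)

theorem ct_lt : ct < 2 ^ (14 * 14) := by decide +kernel

theorem einjP : ∀ i < 6048, ∀ j < 6048, toB F 14 (Mc i) = toB F 14 (Mc j) → i = j := by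
  intro i hi j hj h
  have h1 := toB_inj (Mc_lt i) (Mc_lt j) h
  have hp := of_allI perm1
  have hi' := hp i (Nat.zero_le _) (by omega)
  have hj' := hp j (Nat.zero_le _) (by omega)
  simp only [Bool.and_eq_true, Nat.blt_eq, Nat.beq_eq] at hi' hj'
  have hmono := strict_of_succ (f := fun k => Mc (sg k)) (n := 6048) (fun k hk =>
    Nat.le_of_ble_eq_true (of_allI sorted1 k (Nat.zero_le _) (by omega)))
  have h3 : rh i = rh j := by
    rcases Nat.lt_trichotomy (rh i) (rh j) with h4 | h4 | h4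
    · have h5 := hmono (rh j) hj'.1 (rh i) h4
      simp only [hi'.2, hj'.2] at h5
      omega
    · exact h4
    · have h5 := hmono (rh i) hi'.1 (rh j) h4
      simp only [hi'.2, hj'.2] at h5
      omega
  rw [← hi'.2, ← hj'.2, h3]

end field

section su

variable {K : Type*} [Field K] [Fintype K]

theorem center_bot (hK : Fintype.card K = 3 ^ 2) : Subgroup.center (Cfsg.SU 3 K 3) = ⊥ := by
  have h1 := Cfsg.Agent.Lib.Classical.card_center_su (n := 3) (F := K) (q := 3) hK le_rfl
  have h2 : Nat.gcd 3 (3 + 1) = 1 := by norm_num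
  rw [h2] at h1
  exact Subgroup.eq_bot_of_card_eq _ h1

/-- `SU₃(3) = PSU₃(3)`. -/
noncomputable def suEquiv (hK : Fintype.card K = 3 ^ 2) : Cfsg.SU 3 K 3 ≃* Cfsg.PSU 3 K 3 :=
  ((QuotientGroup.quotientMulEquivOfEq (center_bot hK)).trans QuotientGroup.quotientBot).symm

end su

open Cfsg.Agent.Lib.KnownSimple.LabMat Cfsg.Agent.Lib.KnownSimple.LabSU in
set_option maxHeartbeats 2000000 in
theorem mainU3 {F K : Type*} [Field F] [Fintype F] [Field K] [Fintype K] (hF : Fintype.card F = 2)
    (hK : Fintype.card K = 9) :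
    Nonempty (↥(commutator ↥(chevG2.group F)) ≃* Cfsg.PSU 3 K 3) := by
  classical
  have hK' : Fintype.card K = 3 ^ 2 := by rw [hK]; norm_num
  obtain ⟨R⟩ := exists_rep9 hK
  have h2 : (2 : F) = 0 := by
    exact_mod_cast char_of_pow (F := F) (p := 2) (e := 1) (by rw [hF]; norm_num)
  have hchar : CharP F 2 := CharTwo.of_one_ne_zero_of_two_eq_zero one_ne_zero h2
  let ψ : ZMod 2 →+* F := ZMod.castHom (dvd_refl 2) F
  obtain ⟨g1, hg1G, hg1v⟩ := wChk_spec ψ h2 wg1 pg1 cg1 (by decide +kernel)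
  obtain ⟨g2, hg2G, hg2v⟩ := wChk_spec ψ h2 wg2 pg2 cg2 (by decide +kernel)
  obtain ⟨g3, hg3G, hg3v⟩ := wChk_spec ψ h2 wg3 pg3 cg3 (by decide +kernel)
  obtain ⟨g4, hg4G, hg4v⟩ := wChk_spec ψ h2 wg4 pg4 cg4 (by decide +kernel)
  obtain ⟨t, htG, htv⟩ := wChk_spec ψ h2 wt pt ct (by decide +kernel)
  set G := chevG2.group F with hGdef
  let a₀ := g1⁻¹ * g2⁻¹ * g1 * g2
  let b₀ := g3⁻¹ * g4⁻¹ * g3 * g4
  have ha₀ : ιF F a₀ = toB F 14 cA := letter_a h2 hg1v hg2v
  have hb₀ : ιF F b₀ = toB F 14 cB := letter_b h2 hg3v hg4v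
  let γ : ℕ → Matrix.GeneralLinearGroup chevG2.Idx F := fun a => if a = 0 then a₀ else b₀
  let δ : ℕ → Cfsg.SU 3 K 3 := Cfsg.Agent.Lib.Components.U33.gam hK' R
  have hC : ∀ i < Cfsg.Agent.Lib.Components.U33.N, Cfsg.Agent.Lib.Components.U33.chkC i = true := by
    have h1 := allI_join (y := 3024) allI_start Cfsg.Agent.Lib.Components.U33.chkC_part1 rfl
    exact allI_join (y := 6048) h1 Cfsg.Agent.Lib.Components.U33.chkC_part2 rfl
  have ht : TabL (ιF F) (suHom 3 K 3) 6048 2 γ δ (fun i => toB F 14 (Mc i))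
      (fun i => Cfsg.Agent.Lib.KnownSimple.LabMat.toM R.φ 3 (Cfsg.Agent.Lib.Components.U33.cd i)) nx Cfsg.Agent.Lib.Components.U33.i0 := by
    refine ⟨ιF_inj, suHom_inj, by decide, ?_, ?_, ?_, ?_, ?_, ?_, einjP, ?_⟩
    · exact chkI_spec (by decide +kernel)
    · show Cfsg.Agent.Lib.KnownSimple.LabMat.toM R.φ 3 (Cfsg.Agent.Lib.Components.U33.cd Cfsg.Agent.Lib.Components.U33.i0) = 1
      rw [Cfsg.Agent.Lib.Components.U33.c_id]
      exact toM_idC R.h0 R.h1 3
    · intro a ha i hi
      exact Cfsg.Agent.Lib.Components.U33.nx_lt ha (hC i hi)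
    · intro a ha i hi
      interval_cases a
      · have h1 : stepA i = true := by
          rcases Nat.lt_or_ge i 3024 with h | h
          · exact of_allI stepA1 i (Nat.zero_le _) (by omega)
          · exact of_allI stepA2 i h (by omega)
        have h3 := chk_spec (F := F) h2 h1
        simp only [γ, if_true]
        rw [ha₀]
        exact h3
      · have h1 : stepB i = true := by
          rcases Nat.lt_or_ge i 3024 with h | h
          · exact of_allI stepB1 i (Nat.zero_le _) (by omega)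
          · exact of_allI stepB2 i h (by omega)
        have h3 := chk_spec (F := F) h2 h1
        simp only [γ, one_ne_zero, if_false]
        rw [hb₀]
        exact h3
    · intro a ha i hi
      exact (Cfsg.Agent.Lib.Components.U33.step hK' R hC ha hi).symm
    · intro P h0 hs
      exact Cfsg.Agent.Lib.Components.U33.tree_ind hC P h0 hs
    · intro i hi j hj h
      have hb : ∀ k, k < 6048 → Cfsg.Agent.Lib.Components.U33.enc k < 387420489 := fun k hk =>
        (Cfsg.Agent.Lib.Components.U33.chkC_spec (hC k hk)).2.2.2.2.1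
      have h3 := Cfsg.Agent.Lib.Components.U33.digits_inj R (hb i hi) (hb j hj) h
      exact Cfsg.Agent.Lib.Components.U33.enc_inj hC hi hj h3
  have hfin : Finite (Matrix.GeneralLinearGroup chevG2.Idx F) := Finite.of_injective _ (ιF_inj (F := F))
  have hfin' : Finite (Cfsg.SU 3 K 3) := Finite.of_injective _ (suHom_inj (n := 3) (F := K) (q := 3))
  have hQ : Nat.card (Cfsg.SU 3 K 3) = 6048 := Cfsg.Agent.Lib.Components.U33.card_su33 hK'
  obtain ⟨N, hN, hcard, hmem, ⟨iso⟩⟩ := ht.main hQ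
  have hγG : ∀ a, γ a ∈ G := by
    intro a
    by_cases h : a = 0
    · simp only [γ, h, if_true, a₀]
      exact mul_mem (mul_mem (mul_mem (inv_mem hg1G) (inv_mem hg2G)) hg1G) hg2G
    · simp only [γ, h, if_false, b₀]
      exact mul_mem (mul_mem (mul_mem (inv_mem hg3G) (inv_mem hg4G)) hg3G) hg4G
  have hNG : N ≤ G := by
    rw [hN, Subgroup.closure_le]
    rintro _ ⟨a, _, rfl⟩
    exact hγG a
  have hcardG : Nat.card G = 2 * Nat.card N := by
    rw [hGdef, Cfsg.Agent.S1059.result hF, hcard]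
    norm_num
  have hfinG : Finite G := inferInstance
  have htN : t ∉ N := by
    intro h
    obtain ⟨i, hi, h1⟩ := (hmem t).mp h
    rw [htv] at h1
    have h3 := toB_inj ct_lt (Mc_lt i) h1
    have h4 := of_allI out1 i (Nat.zero_le _) (by omega)
    rw [← h3] at h4
    simp [Nat.beq_refl] at h4
  have hnorm : ∀ x ∈ N, t * x * t⁻¹ ∈ N := by
    intro x hx
    rw [hN] at hx
    induction hx using Subgroup.closure_induction with
    | mem x hx =>
      obtain ⟨a, ha, rfl⟩ := hx
      have ha' : a < 2 := ha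
      rw [hmem]
      have key : ∀ {i cL cTL : ℕ}, i < 6048 → ιF F (γ a) = toB F 14 cL → chkB 14 16383 ct cL cTL = true →
          chkB 14 16383 (Mc i) ct cTL = true → ∃ i < 6048, ιF F (t * γ a * t⁻¹) = toB F 14 (Mc i) := by
        intro i cL cTL hi h1 h3 h4
        refine ⟨i, hi, ?_⟩
        have h5 : ιF F (t * γ a) = toB F 14 (Mc i) * ιF F t := by
          rw [map_mul, h1, htv, ← chk_spec h2 h3, chk_spec h2 h4]
        rw [map_mul, h5, mul_assoc, ← map_mul, mul_inv_cancel, map_one, mul_one]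
      interval_cases a
      · exact key (i := iA) (cL := cA) (cTL := cTA) (by decide +kernel) ha₀ (by decide +kernel) (by decide +kernel)
      · exact key (i := iB) (cL := cB) (cTL := cTB) (by decide +kernel) hb₀ (by decide +kernel) (by decide +kernel)
    | one => simp
    | mul x y _ _ hx hy =>
      have h : t * (x * y) * t⁻¹ = (t * x * t⁻¹) * (t * y * t⁻¹) := by group
      rw [h]
      exact mul_mem hx hy
    | inv x _ hx =>
      have h : t * x⁻¹ * t⁻¹ = (t * x * t⁻¹)⁻¹ := by group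
      rw [h]
      exact inv_mem hx
  have hcomm : N ≤ (commutator G).map G.subtype := by
    rw [hN, Subgroup.closure_le]
    rintro _ ⟨a, _, rfl⟩
    by_cases h : a = 0
    · simp only [γ, h, if_true, a₀]
      exact R3.comm_mem_map G hg1G hg2G
    · simp only [γ, h, if_false, b₀]
      exact R3.comm_mem_map G hg3G hg4G
  have E := commutator_eq G N Nat.prime_two hNG hcardG t htG htN hnorm hcomm
  have iso0 : ↥(commutator ↥G) ≃* ↥((commutator ↥G).map G.subtype) :=
    Subgroup.equivMapOfInjective _ _ Subtype.val_injective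
  have iso1 : ↥(commutator ↥G) ≃* ↥N := iso0.trans (MulEquiv.subgroupCongr E)
  exact ⟨iso1.trans (iso.trans (suEquiv hK'))⟩

end Cfsg.Agent.Lib.Chev.GI.U3
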