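import Cfsg.Agent.Lib.Chev.GI.U3Data
import Cfsg.Agent.Lib.Components.U33Kit

/-! `G₂(2)′ ≅ PSU₃(3)`: the heavy checks. -/

set_option autoImplicit false
set_option maxRecDepth 100000

namespace Cfsg.Agent.Lib.Chev.GI.U3

open Cfsg.Agent.Lib.KnownSimple.Lab
open Cfsg.Agent.Lib.Components.U33 (nx get)

/-- A chunk of the table. -/
def TMc (j : ℕ) : ℕ :=
  match j with
  | 0 => TM0 | 1 => TM1 | 2 => TM2 | 3 => TM3 | 4 => TM4 | 5 => TM5
  | 6 => TM6 | 7 => TM7 | 8 => TM8 | 9 => TM9 | 10 => TM10 | _ => TM11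

/-- The matrix of index `i`. -/
def Mc (i : ℕ) : ℕ := get (TMc (i / 504)) 196 (i % 504)

/-- The sorting permutation. -/
def sg (k : ℕ) : ℕ := get TS 13 k
/-- Its inverse. -/
def rh (k : ℕ) : ℕ := get TH 13 k

/-- A step of the table. -/
def stepA (i : ℕ) : Bool := chkB 14 16383 cA (Mc i) (Mc (nx 0 i))
/-- A step of the table. -/
def stepB (i : ℕ) : Bool := chkB 14 16383 cB (Mc i) (Mc (nx 1 i))

theorem stepA1 : allI stepA 0 3024 = true := by decide +kernel
theorem stepA2 : allI stepA 3024 3024 = true := by decide +kernel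
theorem stepB1 : allI stepB 0 3024 = true := by decide +kernel
theorem stepB2 : allI stepB 3024 3024 = true := by decide +kernel

theorem sorted1 : allI (fun k => Nat.blt (Mc (sg k)) (Mc (sg (k + 1)))) 0 6047 = true := by decide +kernel
theorem perm1 : allI (fun i => Nat.blt (rh i) 6048 && Nat.beq (sg (rh i)) i) 0 6048 = true := by decide +kernel
theorem out1 : allI (fun i => !(Nat.beq ct (Mc i))) 0 6048 = true := by decide +kernel

end Cfsg.Agent.Lib.Chev.GI.U3
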